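import Cfsg.Agent.JFan.Count

/-!
The abstract form of Jordan's theorem.
-/

set_option autoImplicit false

namespace Cfsg.Agent.JFan

open Subgroup Finset

universe u

/-- The thresholds. -/
def thr (b Q : ℕ) : ℕ → ℕ
  | 0 => 0
  | j + 1 => thr b Q j + 2 * (b + Q + Q * thr b Q j).factorial

/-- The bound. -/
def bnd (b Q : ℕ) : ℕ := Q + (b + Q + Q * thr b Q (2 * Q)).factorial

lemma thr_mono (b Q : ℕ) : Monotone (thr b Q) := by
  refine monotone_nat_of_le_succ (fun j => ?_)
  rw [thr]
  omega

variable {G : Type u} [Group G] [Fintype G] {p : ℕ} {Z : Subgroup G} {c l w n : ℕ}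

/-- The fans of a given order carry a definite proportion of the group. -/
lemma Dat.class_large (T : Dat p Z c l w n) {F : Subgroup G} (hF : F ∈ MF p c Z) :
    Nat.card G ≤ c ^ l * c * w *
      ∑ F' ∈ (MFf p c Z).filter (fun F' : Subgroup G => Nat.card F' = Nat.card F),
        Nat.card F' := by
  classical
  let _ := cjAct (G := G)
  have h1 : Nat.card (MulAction.orbit G F) ≤
      ((MFf p c Z).filter (fun F' : Subgroup G => Nat.card F' = Nat.card F)).card := by
    rw [Nat.card_eq_card_toFinset]
    refine Finset.card_le_card ?_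
    intro F' hF'
    rw [Set.mem_toFinset] at hF'
    obtain ⟨x, rfl⟩ := hF'
    rw [Finset.mem_filter, mem_MFf]
    exact ⟨MF.map hF _ (conj_map_central T.zc x), card_map _ _⟩
  have h2 : ∑ F' ∈ (MFf p c Z).filter (fun F' : Subgroup G => Nat.card F' = Nat.card F),
      Nat.card F' = ((MFf p c Z).filter
        (fun F' : Subgroup G => Nat.card F' = Nat.card F)).card * Nat.card F := by
    rw [Finset.sum_congr rfl (fun F' hF' => (Finset.mem_filter.1 hF').2), Finset.sum_const,
      smul_eq_mul]
  rw [h2]
  obtain ⟨q, hq0, hq, hqc⟩ := T.card_norm hF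
  have h3 := orbit_cj F
  rw [hqc] at h3
  calc Nat.card G = q * (Nat.card (MulAction.orbit G F) * Nat.card F) := by rw [← h3]; ring
    _ ≤ _ := Nat.mul_le_mul hq (Nat.mul_le_mul h1 le_rfl)

lemma Dat.sizes (T : Dat p Z c l w n) :
    ((MFf p c Z).image (fun F : Subgroup G => Nat.card F)).card ≤ 2 * (c ^ l * c * w) := by
  classical
  set I := (MFf p c Z).image (fun F : Subgroup G => Nat.card F) with hI
  have h1 : ∑ s ∈ I, Nat.card G ≤ ∑ s ∈ I, c ^ l * c * w *
      ∑ F' ∈ (MFf p c Z).filter (fun F' : Subgroup G => Nat.card F' = s), Nat.card F' := by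
    refine Finset.sum_le_sum (fun s hs => ?_)
    obtain ⟨F, hF, rfl⟩ := Finset.mem_image.1 hs
    exact T.class_large (mem_MFf.1 hF)
  rw [Finset.sum_const, smul_eq_mul, ← Finset.mul_sum,
    Finset.sum_fiberwise_of_maps_to (fun F hF => Finset.mem_image_of_mem _ hF)] at h1
  have h2 := T.sum_large _ (Finset.Subset.refl (MFf p c Z))
  have h3 : c ^ l * c * w * ∑ F' ∈ MFf p c Z, Nat.card F' ≤
      c ^ l * c * w * (2 * Nat.card G) := Nat.mul_le_mul le_rfl (by omega)
  have h4 : I.card * Nat.card G ≤ (2 * (c ^ l * c * w)) * Nat.card G := by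
    refine (h1.trans h3).trans (le_of_eq (by ring))
  exact Nat.le_of_mul_le_mul_right h4 Nat.card_pos

/-- The abstract form of Jordan's theorem. -/
theorem Dat.main (T : Dat p Z c l w n) : ∃ A : Subgroup G, A ≤ centralizer (A : Set G) ∧
    (Nat.card A).Coprime p ∧ A.index ≤ bnd (n * (c ^ l * c)) (c ^ l * c * w) := by
  classical
  have hrel := @Dat.relIndex_norm G _ _ p Z c l w n T
  have hszs := T.sizes
  have hdm := T.dvd_main
  generalize hb : n * (c ^ l * c) = b at *
  generalize hQ : c ^ l * c * w = Q at *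
  set K : ℕ → ℕ := fun j => b + Q + Q * thr b Q j with hK
  have hKmono : ∀ j ≤ 2 * Q, (K j).factorial ≤ (b + Q + Q * thr b Q (2 * Q)).factorial := by
    intro j hj
    refine Nat.factorial_le ?_
    have := Nat.mul_le_mul (le_refl Q) (thr_mono b Q hj)
    simp only [hK]
    omega
  set ν : ℕ → Finset (Subgroup G) := fun j => (MFf p c Z).filter
    (fun F : Subgroup G => ¬ Nat.card F ≤ thr b Q j * Nat.card Z) with hν
  have hdvd : ∀ j, (Nat.card G : ℤ) ∣ ((K j).factorial : ℤ) * (((ν j).card : ℤ) - 1) *
      Nat.card Z := by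
    intro j
    exact hdm (K j) (thr b Q j) (by simp only [hK]; omega) (by simp only [hK]; omega)
      (by simp only [hK]; omega)
  have hZ0 : 0 < Nat.card Z := Nat.card_pos
  by_cases hcase : ∃ j ≤ 2 * Q, (ν j).card = 0 ∨ (ν j).card = 1
  · obtain ⟨j, hj, h0 | h1⟩ := hcase
    · refine ⟨Z, ?_, T.zp, ?_⟩
      · exact T.fan_Z.1
      · have h2 := hdvd j
        rw [h0] at h2
        have h3 : (Nat.card G : ℤ) ∣ ((K j).factorial * Nat.card Z : ℕ) := by
          have h4 := (dvd_neg (a := (Nat.card G : ℤ))).2 h2
          have h5 : (((K j).factorial * Nat.card Z : ℕ) : ℤ) =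
              -(((K j).factorial : ℤ) * (((0 : ℕ) : ℤ) - 1) * Nat.card Z) := by
            push_cast
            ring
          rw [h5]
          exact h4
        have h4 : Nat.card G ∣ (K j).factorial * Nat.card Z := by exact_mod_cast h3
        have h5 := Nat.le_of_dvd (Nat.mul_pos (Nat.factorial_pos _) hZ0) h4
        rw [← Subgroup.index_mul_card Z] at h5
        have h6 := Nat.le_of_mul_le_mul_right h5 hZ0
        have h7 := hKmono j hj
        unfold bnd
        omega
    · obtain ⟨F, hF⟩ := Finset.card_eq_one.1 h1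
      have hFm : F ∈ ν j := by rw [hF]; exact Finset.mem_singleton_self F
      have hFmem := Finset.mem_filter.1 hFm
      have hFM := mem_MFf.1 hFmem.1
      refine ⟨F, hFM.1.1, hFM.1.2.1, ?_⟩
      have hn : normalizer (F : Set G) = ⊤ := by
        rw [eq_top_iff]
        intro x _
        rw [Subgroup.mem_normalizer_iff_map_conj_eq]
        have h2 : F.map (MulAut.conj x).toMonoidHom ∈ ν j := by
          rw [Finset.mem_filter, mem_MFf]
          refine ⟨MF.map hFM _ (conj_map_central T.zc x), ?_⟩
          rw [card_map]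
          exact hFmem.2
        rw [hF, Finset.mem_singleton] at h2
        exact h2
      have h3 := hrel hFM
      rw [hn, Subgroup.relIndex_top_right] at h3
      unfold bnd
      omega
  · exfalso
    push Not at hcase
    have hex : ∀ j ≤ 2 * Q, ∃ F ∈ MFf p c Z, thr b Q j * Nat.card Z < Nat.card F ∧
        Nat.card F ≤ thr b Q (j + 1) * Nat.card Z := by
      intro j hj
      obtain ⟨h0, h1⟩ := hcase j hj
      by_contra hcon
      push Not at hcon
      have h2 : ∀ F ∈ ν j, 2 * (K j).factorial * Nat.card Z ≤ Nat.card F := by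
        intro F hF
        obtain ⟨hF1, hF2⟩ := Finset.mem_filter.1 hF
        have h3 := hcon F hF1 (by omega)
        have h4 : 2 * (K j).factorial * Nat.card Z ≤ thr b Q (j + 1) * Nat.card Z := by
          refine Nat.mul_le_mul ?_ le_rfl
          rw [thr]
          simp only [hK]
          omega
        omega
      have h3 := T.sum_large (ν j) (Finset.filter_subset _ _)
      have h4 : (ν j).card * (2 * (K j).factorial * Nat.card Z) ≤ ∑ F ∈ ν j, Nat.card F := by
        rw [← smul_eq_mul, ← Finset.sum_const]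
        exact Finset.sum_le_sum h2
      obtain ⟨m, hm⟩ : ∃ m, (ν j).card = m + 2 := ⟨(ν j).card - 2, by omega⟩
      have h5 := hdvd j
      rw [hm] at h5 h4
      have h6 : (Nat.card G : ℤ) ∣ (((K j).factorial * (m + 1) * Nat.card Z : ℕ) : ℤ) := by
        have h6 : (((K j).factorial * (m + 1) * Nat.card Z : ℕ) : ℤ) =
            ((K j).factorial : ℤ) * (((m + 2 : ℕ) : ℤ) - 1) * Nat.card Z := by
          push_cast
          ring
        rw [h6]
        exact h5
      have h7 : Nat.card G ∣ (K j).factorial * (m + 1) * Nat.card Z := by exact_mod_cast h6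
      have h8 := Nat.le_of_dvd (Nat.mul_pos (Nat.mul_pos (Nat.factorial_pos _)
        (Nat.succ_pos m)) hZ0) h7
      have h8' : Nat.card G ≤ (K j).factorial * (m + 1) * Nat.card Z := h8
      have h9 : (m + 2) * (2 * (K j).factorial * Nat.card Z) =
        2 * ((K j).factorial * (m + 1) * Nat.card Z) + 2 * ((K j).factorial * Nat.card Z) := by
        ring
      rw [h9] at h4
      clear h8 h7 h6 h5
      omega
    have hch : ∀ j : Fin (2 * Q + 1), ∃ F ∈ MFf p c Z, thr b Q j * Nat.card Z < Nat.card F ∧
        Nat.card F ≤ thr b Q (j + 1) * Nat.card Z := fun j => hex j (by omega)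
    choose Fj hF1 hF2 hF3 using hch
    have hinj : Function.Injective (fun j : Fin (2 * Q + 1) => Nat.card (Fj j)) := by
      have hmono : StrictMono (fun j : Fin (2 * Q + 1) => Nat.card (Fj j)) := by
        intro i j hij
        have h1 := hF3 i
        have h2 := hF2 j
        have h3 : thr b Q (i + 1) ≤ thr b Q j := thr_mono b Q (by omega)
        have h4 := Nat.mul_le_mul h3 (le_refl (Nat.card Z))
        change Nat.card (Fj i) < Nat.card (Fj j)
        omega
      exact hmono.injective
    have h1 : (Finset.univ : Finset (Fin (2 * Q + 1))).card ≤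
        ((MFf p c Z).image (fun F : Subgroup G => Nat.card F)).card := by
      refine Finset.card_le_card_of_injOn (fun j => Nat.card (Fj j)) ?_ hinj.injOn
      intro j _
      exact Finset.mem_image_of_mem _ (hF1 j)
    rw [Finset.card_univ, Fintype.card_fin] at h1
    omega

end Cfsg.Agent.JFan
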