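import Cfsg.Agent.JFan.Inv

/-!
The count: the number of maximal nonscalar fans of large size is congruent to `1` in a strong
sense.
-/

set_option autoImplicit false

namespace Cfsg.Agent.JFan

open Subgroup Finset

universe u

variable {G : Type u} [Group G] [Fintype G] {p : ℕ} {Z : Subgroup G} {c l w n : ℕ}

/-- The elements attached to no maximal fan. -/
def XI (p c : ℕ) (Z : Subgroup G) : Set G := {g | g ∉ Z ∧ ∀ F ∈ MF p c Z, g ∉ YF p c Z F}

open Classical in
/-- The finset of maximal fans. -/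
noncomputable def MFf (p c : ℕ) (Z : Subgroup G) : Finset (Subgroup G) :=
  (Finset.univ : Finset (Subgroup G)).filter (fun F => F ∈ MF p c Z)

lemma mem_MFf {F : Subgroup G} : F ∈ MFf p c Z ↔ F ∈ MF p c Z := by
  simp [MFf]

lemma nat_card_eq_sum (S : Set G) [DecidablePred (· ∈ S)] :
    Nat.card S = ∑ g : G, if g ∈ S then 1 else 0 := by
  rw [Finset.sum_boole, Nat.card_eq_fintype_card, Fintype.card_subtype]
  rfl

/-- The partition of the group. -/
lemma Dat.count (T : Dat p Z c l w n) :
    Nat.card G + (MFf p c Z).card * Nat.card Z =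
      Nat.card Z + Nat.card (XI p c Z) + ∑ F ∈ MFf p c Z, Nat.card (YF p c Z F) := by
  classical
  have e1 : Nat.card G = ∑ _g : G, 1 := by
    rw [Finset.sum_const, Finset.card_univ, smul_eq_mul, mul_one, Nat.card_eq_fintype_card]
  have e2 : (MFf p c Z).card * Nat.card Z =
      ∑ g : G, ∑ _F ∈ MFf p c Z, if g ∈ (Z : Set G) then 1 else 0 := by
    rw [Finset.sum_comm, Finset.sum_const, smul_eq_mul, ← nat_card_eq_sum (Z : Set G)]
    rfl
  have e3 : Nat.card Z = ∑ g : G, if g ∈ (Z : Set G) then 1 else 0 :=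
    nat_card_eq_sum (Z : Set G)
  have e4 : ∑ F ∈ MFf p c Z, Nat.card (YF p c Z F) =
      ∑ g : G, ∑ F ∈ MFf p c Z, if g ∈ YF p c Z F then 1 else 0 := by
    rw [Finset.sum_comm]
    exact Finset.sum_congr rfl (fun F _ => nat_card_eq_sum _)
  rw [e2, e4, nat_card_eq_sum (XI p c Z)]
  nth_rewrite 1 [e1]
  rw [e3, ← Finset.sum_add_distrib, ← Finset.sum_add_distrib, ← Finset.sum_add_distrib]
  refine Finset.sum_congr rfl (fun g _ => ?_)
  by_cases hg : g ∈ Z
  · have h1 : g ∉ XI p c Z := fun h => h.1 hg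
    rw [if_pos (show g ∈ (Z : Set G) from hg), if_neg h1, add_zero]
    congr 1
    refine Finset.sum_congr rfl (fun F hF => ?_)
    rw [if_pos (T.Z_sub_YF (mem_MFf.1 hF) hg)]
  · rw [if_neg (show ¬ g ∈ (Z : Set G) from hg), Finset.sum_const_zero, add_zero, zero_add]
    by_cases hx : g ∈ XI p c Z
    · rw [if_pos hx, Finset.sum_eq_zero, add_zero]
      intro F hF
      rw [if_neg (hx.2 F (mem_MFf.1 hF))]
    · rw [if_neg hx, zero_add]
      have hx' : ∃ F ∈ MF p c Z, g ∈ YF p c Z F := by
        by_contra hcon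
        push Not at hcon
        exact hx ⟨hg, hcon⟩
      obtain ⟨F, hF, hgF⟩ := hx'
      rw [Finset.sum_eq_single F]
      · rw [if_pos hgF]
      · intro F' hF' hne
        rw [if_neg]
        intro hgF'
        exact hne (T.YF_unique (mem_MFf.1 hF') hF hg hgF' hgF)
      · intro h
        exact absurd (mem_MFf.2 hF) h

lemma Dat.card_cz (T : Dat p Z c l w n) {g : G} (hg : g ∈ XI p c Z) {X : Subgroup G}
    (hX : ∀ x ∈ X, x * g * x⁻¹ * g⁻¹ ∈ Z) :
    Nat.card X ≤ n * (c ^ l * c) * Nat.card Z := by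
  refine (T.cz g hg.1 X hX).trans ?_
  rw [mul_assoc]
  refine Nat.mul_le_mul le_rfl (T.small hg.1 ?_)
  intro E hE hgE
  by_contra hne
  obtain ⟨F, hF, hgF⟩ := exists_YF (Z := Z) hE hne hgE
  exact hg.2 F hF hgF

/-- Elements outside all fans. -/
lemma Dat.dvd_XI (T : Dat p Z c l w n) (K : ℕ) (hK : n * (c ^ l * c) ≤ K) :
    Nat.card G ∣ K.factorial * Nat.card (XI p c Z) := by
  classical
  let _ := twAct Z T.zc
  have hsm : ∀ (a : G × Z) (g : G), a • g = a.1 * g * a.1⁻¹ * a.2 := fun _ _ => rfl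
  have hinv : ∀ (a : G × Z) (g : G), g ∈ XI p c Z → a • g ∈ XI p c Z := by
    intro a g hg
    have h1 : ∀ F ∈ MF p c Z, a • g ∈ YF p c Z F → g ∈ YF p c Z
        (F.map (MulAut.conj a.1⁻¹).toMonoidHom) := by
      intro F hF hgF
      have h2 := YF_mul hF hgF (inv_mem (T.MF_Z_le hF a.2.2))
      rw [hsm, mul_assoc, mul_inv_cancel, mul_one] at h2
      have h3 := YF_map (MulAut.conj a.1⁻¹) (conj_map_central T.zc _) h2
      rw [MulAut.conj_apply] at h3
      have h4 : a.1⁻¹ * (a.1 * g * a.1⁻¹) * a.1⁻¹⁻¹ = g := by group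
      rw [h4] at h3
      exact h3
    refine ⟨?_, ?_⟩
    · intro h
      apply hg.1
      have h2 : a.1 * g * a.1⁻¹ ∈ Z := by
        have := mul_mem h (inv_mem a.2.2)
        rwa [hsm, mul_assoc, mul_inv_cancel, mul_one] at this
      have h3 : a.1 * g * a.1⁻¹ * a.1 = a.1 * (a.1 * g * a.1⁻¹) :=
        (Subgroup.mem_center_iff.1 (T.zc h2) a.1).symm
      have h4 : g = a.1 * g * a.1⁻¹ := by
        have h5 : a.1 * g = a.1 * (a.1 * g * a.1⁻¹) := by rw [← h3]; group
        exact mul_left_cancel h5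
      rw [h4]; exact h2
    · intro F hF hgF
      exact hg.2 _ (MF.map hF (MulAut.conj a.1⁻¹) (conj_map_central T.zc _)) (h1 F hF hgF)
  have hinv' : ∀ (a : G × Z) (g : G), a • g ∈ XI p c Z ↔ g ∈ XI p c Z := by
    intro a g
    refine ⟨fun h => ?_, hinv a g⟩
    have := hinv a⁻¹ _ h
    rwa [inv_smul_smul] at this
  have key := dvd_sum_of_orbits (A := G × Z) (X := G)
    (fun g => if g ∈ XI p c Z then K.factorial else 0)
    (fun a g => by simp only [hinv' a g]) (Nat.card G) (by
      intro g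
      change _ ∣ _ * (if g ∈ XI p c Z then K.factorial else 0)
      by_cases hg : g ∈ XI p c Z
      · rw [if_pos hg]
        obtain ⟨X, hX, hZX, hcard⟩ := orbit_tw Z T.zc g
        obtain ⟨m, hm⟩ := Subgroup.card_dvd_of_le hZX
        have hle := T.card_cz hg hX
        have hZ0 : 0 < Nat.card Z := Nat.card_pos
        have hX0 : 0 < Nat.card X := Nat.card_pos
        rw [hm] at hle hcard hX0
        have hm0 : 0 < m := Nat.pos_of_mul_pos_left hX0 |> fun h => by
          rcases Nat.eq_zero_or_pos m with h0 | h0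
          · rw [h0] at hX0; simp at hX0
          · exact h0
        have hmK : m ≤ K := by
          refine le_trans ?_ hK
          have : Nat.card Z * m ≤ Nat.card Z * (n * (c ^ l * c)) := by
            rw [mul_comm (Nat.card Z) (n * (c ^ l * c))]; exact hle
          exact Nat.le_of_mul_le_mul_left this hZ0
        obtain ⟨t, ht⟩ := Nat.dvd_factorial hm0 hmK
        have h5 : Nat.card (MulAction.orbit (G × Z) g) * m = Nat.card G := by
          have h6 : (Nat.card (MulAction.orbit (G × Z) g) * m) * Nat.card Z =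
              Nat.card G * Nat.card Z := by
            rw [← hcard]
            change _ = Nat.card (MulAction.orbit (G × Z) g) * (Nat.card Z * m)
            ring
          exact Nat.eq_of_mul_eq_mul_right hZ0 h6
        rw [ht, ← mul_assoc, h5]
        exact dvd_mul_right _ _
      · rw [if_neg hg, mul_zero]
        exact dvd_zero _)
  rw [nat_card_eq_sum (XI p c Z), Finset.mul_sum]
  simpa only [mul_ite, mul_one, mul_zero] using key

/-- Class functions on the set of maximal fans. -/
lemma Dat.dvd_fans (T : Dat p Z c l w n) (P : ℕ → Prop) [DecidablePred P] (f : Subgroup G → ℕ)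
    (hf : ∀ (F : Subgroup G) (x : G), f (F.map (MulAut.conj x).toMonoidHom) = f F)
    (h : ∀ F ∈ MF p c Z, P (Nat.card F) →
      Nat.card G * Nat.card (normalizer (F : Set G)) ∣ Nat.card G * f F) :
    Nat.card G ∣ ∑ F ∈ (MFf p c Z).filter (fun F : Subgroup G => P (Nat.card F)), f F := by
  classical
  let _ := cjAct (G := G)
  have hiff : ∀ (F : Subgroup G) (x : G), F.map (MulAut.conj x).toMonoidHom ∈ MF p c Z ↔
      F ∈ MF p c Z := by
    intro F x
    constructor
    · intro hF
      have := MF.map hF (MulAut.conj x).symm (by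
        have h1 := conj_map_central T.zc x
        conv_lhs => rw [← h1]
        rw [map_map_symm])
      rwa [map_map_symm] at this
    · intro hF
      exact MF.map hF _ (conj_map_central T.zc x)
  have key := dvd_sum_of_orbits (A := G) (X := Subgroup G)
    (fun F => if F ∈ MF p c Z ∧ P (Nat.card F) then f F else 0)
    (fun x F => by
      change (if F.map (MulAut.conj x).toMonoidHom ∈ MF p c Z ∧
        P (Nat.card (F.map (MulAut.conj x).toMonoidHom)) then
        f (F.map (MulAut.conj x).toMonoidHom) else 0) = _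
      rw [hiff, hf, card_map]) (Nat.card G) (by
      intro F
      change _ ∣ _ * (if F ∈ MF p c Z ∧ P (Nat.card F) then f F else 0)
      by_cases hF : F ∈ MF p c Z ∧ P (Nat.card F)
      · rw [if_pos hF]
        have h1 := h F hF.1 hF.2
        have h2 := orbit_cj F
        have h0 : 0 < Nat.card (normalizer (F : Set G)) := Nat.card_pos
        obtain ⟨t, ht⟩ := h1
        refine ⟨t, ?_⟩
        have h3 : (Nat.card (MulAction.orbit G F) * f F) * Nat.card (normalizer (F : Set G)) =
            (Nat.card G * t) * Nat.card (normalizer (F : Set G)) := by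
          calc (Nat.card (MulAction.orbit G F) * f F) * Nat.card (normalizer (F : Set G))
              = (Nat.card (MulAction.orbit G F) * Nat.card (normalizer (F : Set G))) * f F := by
                ring
            _ = Nat.card G * f F := by rw [h2]
            _ = _ := by rw [ht]; ring
        exact Nat.eq_of_mul_eq_mul_right h0 h3
      · rw [if_neg hF, mul_zero]
        exact dvd_zero _)
  have h9 : ∑ F : Subgroup G, (if F ∈ MF p c Z ∧ P (Nat.card F) then f F else 0) =
      ∑ F ∈ (MFf p c Z).filter (fun F : Subgroup G => P (Nat.card F)), f F := by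
    rw [← Finset.sum_filter]
    refine Finset.sum_congr ?_ (fun _ _ => rfl)
    ext F
    simp [MFf]
  rw [h9] at key
  exact key

/-- The order of the normalizer of a maximal fan. -/
lemma Dat.card_norm (T : Dat p Z c l w n) {F : Subgroup G} (hF : F ∈ MF p c Z) :
    ∃ q, 0 < q ∧ q ≤ c ^ l * c * w ∧ Nat.card (normalizer (F : Set G)) = Nat.card F * q := by
  have hle : F ≤ normalizer (F : Set G) := Subgroup.le_normalizer
  refine ⟨F.relIndex (normalizer (F : Set G)), Nat.pos_of_ne_zero (relIndex_ne _ _),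
    T.relIndex_norm hF, ?_⟩
  have := Subgroup.relIndex_mul_relIndex ⊥ F (normalizer (F : Set G)) bot_le hle
  rw [Subgroup.relIndex_bot_left, Subgroup.relIndex_bot_left] at this
  exact this.symm

lemma Dat.dvd_YF (T : Dat p Z c l w n) (K : ℕ) (hK : c ^ l * c * w ≤ K) :
    Nat.card G ∣ K.factorial * ∑ F ∈ MFf p c Z, Nat.card (YF p c Z F) := by
  classical
  have key := T.dvd_fans (fun _ => True) (fun F => K.factorial * Nat.card (YF p c Z F)) (by
    intro F x
    change _ * _ = _
    rw [card_YF_map F _ (conj_map_central T.zc x)]) (by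
    intro F hF _
    obtain ⟨q, hq0, hq, hqc⟩ := T.card_norm hF
    obtain ⟨t, ht⟩ := dvd_card_YF hF
    obtain ⟨s, hs⟩ := Nat.dvd_factorial hq0 (hq.trans hK)
    rw [hqc, ht, hs]
    exact ⟨s * t, by ring⟩)
  rw [Finset.filter_true_of_mem (fun _ _ => trivial)] at key
  rw [Finset.mul_sum]
  exact key

/-- The number of small fans. -/
lemma Dat.dvd_small (T : Dat p Z c l w n) (K t : ℕ) (hK : c ^ l * c * w * t ≤ K) :
    Nat.card G ∣ K.factorial *
      (((MFf p c Z).filter (fun F : Subgroup G => Nat.card F ≤ t * Nat.card Z)).card * Nat.card Z) := by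
  classical
  have key := T.dvd_fans (fun m => m ≤ t * Nat.card Z) (fun _ => K.factorial * Nat.card Z)
    (fun _ _ => rfl) (by
    intro F hF hFt
    obtain ⟨q, hq0, hq, hqc⟩ := T.card_norm hF
    obtain ⟨m, hm⟩ := Subgroup.card_dvd_of_le (T.MF_Z_le hF)
    have hF0 : 0 < Nat.card F := Nat.card_pos
    have hZ0 : 0 < Nat.card Z := Nat.card_pos
    rw [hm] at hqc hFt hF0
    have hm0 : 0 < m := by
      rcases Nat.eq_zero_or_pos m with h0 | h0
      · rw [h0] at hF0; simp at hF0
      · exact h0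
    have hmt : m ≤ t := by
      rw [mul_comm] at hFt
      exact Nat.le_of_mul_le_mul_right hFt hZ0
    obtain ⟨s, hs⟩ := Nat.dvd_factorial (Nat.mul_pos hm0 hq0)
      (le_trans (by rw [mul_comm m q]; exact Nat.mul_le_mul hq hmt) hK)
    rw [hqc, hs]
    exact ⟨s, by ring⟩)
  rw [Finset.sum_const, smul_eq_mul] at key
  refine key.trans ?_
  rw [show ((MFf p c Z).filter (fun F : Subgroup G => Nat.card F ≤ t * Nat.card Z)).card *
      (K.factorial * Nat.card Z) = K.factorial *
      (((MFf p c Z).filter (fun F : Subgroup G => Nat.card F ≤ t * Nat.card Z)).card * Nat.card Z) by ring]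

/-- The main congruence. -/
lemma Dat.dvd_main (T : Dat p Z c l w n) (K t : ℕ) (h1 : n * (c ^ l * c) ≤ K)
    (h2 : c ^ l * c * w ≤ K) (h3 : c ^ l * c * w * t ≤ K) :
    (Nat.card G : ℤ) ∣ (K.factorial : ℤ) * ((((MFf p c Z).filter
      (fun F : Subgroup G => ¬ Nat.card F ≤ t * Nat.card Z)).card : ℤ) - 1) * Nat.card Z := by
  classical
  have e1 := T.count
  have e2 := T.dvd_XI K h1
  have e3 := T.dvd_YF K h2
  have e4 := T.dvd_small K t h3
  have e5 : ((MFf p c Z).filter (fun F : Subgroup G => Nat.card F ≤ t * Nat.card Z)).card +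
      ((MFf p c Z).filter (fun F : Subgroup G => ¬ Nat.card F ≤ t * Nat.card Z)).card =
      (MFf p c Z).card := Finset.card_filter_add_card_filter_not _
  set A := ((MFf p c Z).filter (fun F : Subgroup G => Nat.card F ≤ t * Nat.card Z)).card
  set B := ((MFf p c Z).filter (fun F : Subgroup G => ¬ Nat.card F ≤ t * Nat.card Z)).card
  rw [← e5] at e1
  have f2 : (Nat.card G : ℤ) ∣ (K.factorial : ℤ) * Nat.card (XI p c Z) := by exact_mod_cast e2
  have f3 : (Nat.card G : ℤ) ∣ (K.factorial : ℤ) *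
      ((∑ F ∈ MFf p c Z, Nat.card (YF p c Z F) : ℕ) : ℤ) := by exact_mod_cast e3
  have f4 : (Nat.card G : ℤ) ∣ (K.factorial : ℤ) * ((A : ℤ) * Nat.card Z) := by
    exact_mod_cast e4
  have f1 : (Nat.card G : ℤ) + ((A : ℤ) + B) * Nat.card Z = Nat.card Z + Nat.card (XI p c Z) +
      ((∑ F ∈ MFf p c Z, Nat.card (YF p c Z F) : ℕ) : ℤ) := by exact_mod_cast e1
  have f5 : (K.factorial : ℤ) * ((B : ℤ) - 1) * Nat.card Z =
      (K.factorial : ℤ) * Nat.card (XI p c Z) + (K.factorial : ℤ) *
      ((∑ F ∈ MFf p c Z, Nat.card (YF p c Z F) : ℕ) : ℤ) - Nat.card G * K.factorial -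
      (K.factorial : ℤ) * ((A : ℤ) * Nat.card Z) := by
    linear_combination (K.factorial : ℤ) * f1
  rw [f5]
  exact dvd_sub (dvd_sub (dvd_add f2 f3) (dvd_mul_right _ _)) f4

/-- The size of `Y_F`. -/
lemma Dat.YF_large (T : Dat p Z c l w n) {F : Subgroup G} (hF : F ∈ MF p c Z) :
    Nat.card F + 2 * Nat.card Z ≤ 2 * Nat.card (YF p c Z F) := by
  have h1 : Nat.card F ≤ Nat.card (YF p c Z F) :=
    Nat.card_le_card_of_injective (fun f : F => (⟨f.1, F_sub_YF hF f.2⟩ : YF p c Z F))
      (fun a b hab => by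
        have h := congrArg (fun y : YF p c Z F => (y : G)) hab
        exact Subtype.ext h)
  obtain ⟨m, hm⟩ := Subgroup.card_dvd_of_le (T.MF_Z_le hF)
  have hF0 : 0 < Nat.card F := Nat.card_pos
  have hm2 : 2 ≤ m := by
    rcases Nat.lt_or_ge m 2 with h | h
    · exfalso
      have hm1 : m = 1 ∨ m = 0 := by omega
      rcases hm1 with rfl | rfl
      · have h3 := Subgroup.eq_of_le_of_card_ge (T.MF_Z_le hF) (by rw [hm, mul_one])
        exact hF.2.1 h3.ge
      · simp at hm; omega
    · exact h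
  have h4 : 2 * Nat.card Z ≤ Nat.card F := by
    rw [hm, mul_comm]; exact Nat.mul_le_mul le_rfl hm2
  omega

lemma Dat.sum_large (T : Dat p Z c l w n) (S : Finset (Subgroup G)) (hS : S ⊆ MFf p c Z) :
    ∑ F ∈ S, Nat.card F + 2 * Nat.card Z ≤ 2 * Nat.card G := by
  have e1 := T.count
  have e2 : ∑ F ∈ MFf p c Z, (Nat.card F + 2 * Nat.card Z) ≤
      ∑ F ∈ MFf p c Z, 2 * Nat.card (YF p c Z F) :=
    Finset.sum_le_sum (fun F hF => T.YF_large (mem_MFf.1 hF))
  rw [Finset.sum_add_distrib, Finset.sum_const, smul_eq_mul, ← Finset.mul_sum] at e2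
  have e3 : ∑ F ∈ S, Nat.card F ≤ ∑ F ∈ MFf p c Z, Nat.card F :=
    Finset.sum_le_sum_of_subset hS
  have e4 : (MFf p c Z).card * (2 * Nat.card Z) = 2 * ((MFf p c Z).card * Nat.card Z) := by ring
  rw [e4] at e2
  omega

end Cfsg.Agent.JFan
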