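import Mathlib

/-!
Jordan's original counting argument for linear groups, in an abstract form: "fans" are abelian
`p'`-subgroups whose centralizer does not grow when one passes to a subgroup of small index.
-/

set_option autoImplicit false

namespace Cfsg.Agent.JFan

open Subgroup

universe u

variable {G : Type u} [Group G] [Finite G]

/-- The data on which Jordan's argument runs. -/
structure Dat (p : ℕ) (Z : Subgroup G) (c l w n : ℕ) : Prop where
  zc : Z ≤ Subgroup.center G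
  zp : (Nat.card Z).Coprime p
  cpos : 1 ≤ c
  ab : ∀ g : G, g ∉ Z → ∃ D : Subgroup G, D ≤ centralizer {g} ∧ D ≤ centralizer (D : Set G) ∧
    (Nat.card D).Coprime p ∧ D.relIndex (centralizer {g}) ≤ c
  dim : ∃ d : Subgroup G → ℕ, (∀ H, d H ≤ l) ∧
    ∀ E F : Subgroup G, E ≤ F → centralizer (E : Set G) ≠ centralizer (F : Set G) → d F < d E
  nc : ∀ A : Subgroup G, A ≤ centralizer (A : Set G) → (Nat.card A).Coprime p →
    (centralizer (A : Set G)).relIndex (normalizer (A : Set G)) ≤ w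
  cz : ∀ g : G, g ∉ Z → ∀ X : Subgroup G, (∀ x ∈ X, x * g * x⁻¹ * g⁻¹ ∈ Z) →
    Nat.card X ≤ n * Nat.card (centralizer ({g} : Set G))

/-- A fan: an abelian `p'`-subgroup whose centralizer is the centralizer of each of its
subgroups of index at most `c`. -/
def Fan (p c : ℕ) (F : Subgroup G) : Prop :=
  F ≤ centralizer (F : Set G) ∧ (Nat.card F).Coprime p ∧
    ∀ E ≤ F, E.relIndex F ≤ c → centralizer (E : Set G) ≤ centralizer (F : Set G)

lemma le_cent_comm {H K : Subgroup G} (h : H ≤ centralizer (K : Set G)) :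
    K ≤ centralizer (H : Set G) := Subgroup.le_centralizer_iff.1 h

lemma le_cent_sup {H K L : Subgroup G} (h1 : H ≤ centralizer (K : Set G))
    (h2 : H ≤ centralizer (L : Set G)) : H ≤ centralizer ((K ⊔ L : Subgroup G) : Set G) := by
  refine le_cent_comm (sup_le (le_cent_comm h1) (le_cent_comm h2))

lemma cent_anti {H K : Subgroup G} (h : H ≤ K) :
    centralizer (K : Set G) ≤ centralizer (H : Set G) := Subgroup.centralizer_le h

lemma relIndex_ne (H K : Subgroup G) : H.relIndex K ≠ 0 := by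
  unfold Subgroup.relIndex
  exact Subgroup.index_ne_zero_of_finite

lemma relIndex_mono_right (H : Subgroup G) {K L : Subgroup G} (h : K ≤ L) :
    H.relIndex K ≤ H.relIndex L := Subgroup.relIndex_le_of_le_right h (relIndex_ne _ _)

lemma relIndex_anti_left {H K : Subgroup G} (L : Subgroup G) (h : H ≤ K) :
    K.relIndex L ≤ H.relIndex L := Subgroup.relIndex_le_of_le_left h (relIndex_ne _ _)

omit [Finite G] in
lemma card_sup_dvd {H K : Subgroup G} (h : H ≤ centralizer (K : Set G)) :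
    Nat.card (H ⊔ K : Subgroup G) ∣ Nat.card H * Nat.card K := by
  have hc : ∀ (m : H) (n : K), Commute (H.subtype m) (K.subtype n) := by
    intro m n
    have := Subgroup.mem_centralizer_iff.1 (h m.2) (n : G) n.2
    exact this.symm
  have h1 := MonoidHom.noncommCoprod_range H.subtype K.subtype hc
  rw [Subgroup.range_subtype, Subgroup.range_subtype] at h1
  rw [← h1, ← Nat.card_prod]
  exact Subgroup.card_range_dvd _

lemma fan_sup {p c : ℕ} {F₁ F₂ : Subgroup G} (h1 : Fan p c F₁) (h2 : Fan p c F₂)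
    (h : F₁ ≤ centralizer (F₂ : Set G)) : Fan p c (F₁ ⊔ F₂) := by
  refine ⟨?_, ?_, ?_⟩
  · exact sup_le (le_cent_sup h1.1 h) (le_cent_sup (le_cent_comm h) h2.1)
  · exact Nat.Coprime.of_dvd_left (card_sup_dvd h) (Nat.Coprime.mul_left h1.2.1 h2.2.1)
  · intro E hE hi
    refine le_cent_sup ?_ ?_
    · refine le_trans (cent_anti (inf_le_left : E ⊓ F₁ ≤ E)) (h1.2.2 _ inf_le_right ?_)
      rw [Subgroup.inf_relIndex_right]
      exact le_trans (relIndex_mono_right _ le_sup_left) hi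
    · refine le_trans (cent_anti (inf_le_left : E ⊓ F₂ ≤ E)) (h2.2.2 _ inf_le_right ?_)
      rw [Subgroup.inf_relIndex_right]
      exact le_trans (relIndex_mono_right _ le_sup_right) hi

variable {p : ℕ} {Z : Subgroup G} {c l w n : ℕ}

lemma Dat.fan_Z (T : Dat p Z c l w n) : Fan p c Z := by
  have h : ∀ E : Subgroup G, E ≤ Z → centralizer (E : Set G) = ⊤ := by
    intro E hE
    rw [eq_top_iff]
    refine le_cent_comm (hE.trans (T.zc.trans ?_))
    intro x hx
    exact Subgroup.mem_centralizer_iff.2 (fun y _ => (Subgroup.mem_center_iff.1 hx y))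
  exact ⟨by rw [h Z le_rfl]; exact le_top, T.zp, fun E hE _ => by rw [h Z le_rfl]; exact le_top⟩

lemma Dat.exists_fan (T : Dat p Z c l w n) (A : Subgroup G) (hA : A ≤ centralizer (A : Set G))
    (hp : (Nat.card A).Coprime p) : ∃ F ≤ A, Fan p c F ∧ F.relIndex A ≤ c ^ l := by
  obtain ⟨d, hd, hd2⟩ := T.dim
  have key : ∀ j : ℕ, ∀ A : Subgroup G, A ≤ centralizer (A : Set G) → (Nat.card A).Coprime p →
      l ≤ d A + j → ∃ F ≤ A, Fan p c F ∧ F.relIndex A ≤ c ^ j := by
    intro j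
    induction j with
    | zero =>
      intro A hA hp hl
      refine ⟨A, le_rfl, ⟨hA, hp, ?_⟩, by simp⟩
      intro E hE _
      by_contra hne
      have h1 : centralizer (E : Set G) ≠ centralizer (A : Set G) := fun h => hne h.le
      have h2 := hd2 E A hE h1
      have h3 := hd E
      omega
    | succ j ih =>
      intro A hA hp hl
      by_cases hf : Fan p c A
      · exact ⟨A, le_rfl, hf, by rw [Subgroup.relIndex_self]; exact Nat.one_le_pow _ _ T.cpos⟩
      · have : ∃ E ≤ A, E.relIndex A ≤ c ∧ ¬ centralizer (E : Set G) ≤ centralizer (A : Set G) := by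
          by_contra hcon
          push Not at hcon
          exact hf ⟨hA, hp, hcon⟩
        obtain ⟨E, hE, hi, hne⟩ := this
        have h2 := hd2 E A hE (fun h => hne h.le)
        obtain ⟨F, hF, hFan, hFi⟩ := ih E (hE.trans (hA.trans (cent_anti hE)))
          (Nat.Coprime.of_dvd_left (Subgroup.card_dvd_of_le hE) hp) (by omega)
        refine ⟨F, hF.trans hE, hFan, ?_⟩
        rw [← Subgroup.relIndex_mul_relIndex _ _ _ hF hE, pow_succ]
        exact Nat.mul_le_mul hFi hi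
  exact key l A hA hp (by omega)

lemma Dat.comm (T : Dat p Z c l w n) {F₁ F₂ : Subgroup G} (h1 : Fan p c F₁) (h2 : Fan p c F₂)
    {g : G} (hg : g ∉ Z) (hg1 : F₁ ≤ centralizer ({g} : Set G))
    (hg2 : F₂ ≤ centralizer ({g} : Set G)) : F₁ ≤ centralizer (F₂ : Set G) := by
  obtain ⟨D, hD, hDa, -, hDi⟩ := T.ab g hg
  have k1 : centralizer ((D ⊓ F₁ : Subgroup G) : Set G) ≤ centralizer (F₁ : Set G) := by
    refine h1.2.2 _ inf_le_right ?_
    rw [Subgroup.inf_relIndex_right]
    exact le_trans (relIndex_mono_right _ hg1) hDi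
  have k2 : centralizer ((D ⊓ F₂ : Subgroup G) : Set G) ≤ centralizer (F₂ : Set G) := by
    refine h2.2.2 _ inf_le_right ?_
    rw [Subgroup.inf_relIndex_right]
    exact le_trans (relIndex_mono_right _ hg2) hDi
  have k3 : D ⊓ F₂ ≤ centralizer ((D ⊓ F₁ : Subgroup G) : Set G) :=
    inf_le_left.trans (hDa.trans (cent_anti inf_le_left))
  exact (le_cent_comm (k3.trans k1)).trans k2

/-- The nonscalar maximal fans. -/
def MF (p c : ℕ) (Z : Subgroup G) : Set (Subgroup G) :=
  {F | Fan p c F ∧ ¬ F ≤ Z ∧ ∀ F' : Subgroup G, Fan p c F' → F ≤ F' → F' = F}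

lemma Dat.MF_Z_le (T : Dat p Z c l w n) {F : Subgroup G} (hF : F ∈ MF p c Z) : Z ≤ F := by
  have h : F ≤ centralizer (Z : Set G) := by
    refine le_cent_comm ?_
    intro x hx
    exact Subgroup.mem_centralizer_iff.2 (fun y _ => (Subgroup.mem_center_iff.1 (T.zc hx) y))
  have := hF.2.2 _ (fan_sup hF.1 T.fan_Z h) le_sup_left
  rw [← this]
  exact le_sup_right

lemma exists_max {E : Subgroup G} (hE : Fan p c E) (hZ : ¬ E ≤ Z) :
    ∃ F ∈ MF p c Z, E ≤ F := by
  classical
  have hfin : {F : Subgroup G | Fan p c F ∧ E ≤ F}.Finite := Set.toFinite _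
  obtain ⟨F, hF, hmax⟩ := hfin.exists_maximalFor (fun F => F) _ ⟨E, hE, le_rfl⟩
  refine ⟨F, ⟨hF.1, fun h => hZ (hF.2.trans h), ?_⟩, hF.2⟩
  intro F' hF' hle
  exact le_antisymm (hmax ⟨hF', hF.2.trans hle⟩ hle) hle

/-- A maximal fan containing a common nonscalar fan. -/
lemma Dat.unique (T : Dat p Z c l w n) {F₁ F₂ : Subgroup G} (h1 : F₁ ∈ MF p c Z)
    (h2 : F₂ ∈ MF p c Z) {E : Subgroup G} (hZ : ¬ E ≤ Z) (e1 : E ≤ F₁) (e2 : E ≤ F₂) :
    F₁ = F₂ := by
  obtain ⟨g, hgE, hgZ⟩ := SetLike.not_le_iff_exists.1 hZ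
  have k : ∀ F : Subgroup G, F ∈ MF p c Z → E ≤ F → F ≤ centralizer ({g} : Set G) := by
    intro F hF he x hx
    refine Subgroup.mem_centralizer_iff.2 ?_
    rintro y rfl
    exact Subgroup.mem_centralizer_iff.1 (hF.1.1 hx) _ (he hgE)
  have hc := T.comm h1.1 h2.1 hgZ (k _ h1 e1) (k _ h2 e2)
  have hf := fan_sup h1.1 h2.1 hc
  rw [← h1.2.2 _ hf le_sup_left]
  exact h2.2.2 _ hf le_sup_right

/-- The elements attached to a maximal fan. -/
def YF (p c : ℕ) (Z F : Subgroup G) : Set G :=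
  {g | ∃ E ≤ F, Fan p c E ∧ ¬ E ≤ Z ∧ g ∈ centralizer (E : Set G)}

lemma Dat.YF_unique (T : Dat p Z c l w n) {F₁ F₂ : Subgroup G} (h1 : F₁ ∈ MF p c Z)
    (h2 : F₂ ∈ MF p c Z) {g : G} (hg : g ∉ Z) (g1 : g ∈ YF p c Z F₁) (g2 : g ∈ YF p c Z F₂) :
    F₁ = F₂ := by
  obtain ⟨E₁, e1, f1, z1, c1⟩ := g1
  obtain ⟨E₂, e2, f2, z2, c2⟩ := g2
  have k : ∀ E : Subgroup G, g ∈ centralizer (E : Set G) → E ≤ centralizer ({g} : Set G) := by
    intro E hE x hx
    refine Subgroup.mem_centralizer_iff.2 ?_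
    rintro y rfl
    exact (Subgroup.mem_centralizer_iff.1 hE x hx).symm
  have hc := T.comm f1 f2 hg (k _ c1) (k _ c2)
  have hf := fan_sup f1 f2 hc
  obtain ⟨F, hF, hle⟩ := exists_max (Z := Z) hf (fun h => z1 (le_sup_left.trans h))
  rw [T.unique h1 hF z1 e1 (le_sup_left.trans hle), T.unique h2 hF z2 e2 (le_sup_right.trans hle)]

lemma Dat.Z_sub_YF (T : Dat p Z c l w n) {F : Subgroup G} (hF : F ∈ MF p c Z) {g : G}
    (hg : g ∈ Z) : g ∈ YF p c Z F :=
  ⟨F, le_rfl, hF.1, hF.2.1, Subgroup.mem_centralizer_iff.2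
    (fun y _ => (Subgroup.mem_center_iff.1 (T.zc hg) y))⟩

lemma F_sub_YF {F : Subgroup G} (hF : F ∈ MF p c Z) {g : G} (hg : g ∈ F) : g ∈ YF p c Z F :=
  ⟨F, le_rfl, hF.1, hF.2.1, hF.1.1 hg⟩

lemma YF_mul {F : Subgroup G} (hF : F ∈ MF p c Z) {g f : G} (hg : g ∈ YF p c Z F) (hf : f ∈ F) :
    g * f ∈ YF p c Z F := by
  obtain ⟨E, e1, f1, z1, c1⟩ := hg
  exact ⟨E, e1, f1, z1, mul_mem c1 (cent_anti e1 (hF.1.1 hf))⟩

/-- An element centralizing a nonscalar fan lies in some `YF`. -/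
lemma exists_YF {E : Subgroup G} (hE : Fan p c E) (hZ : ¬ E ≤ Z) {g : G}
    (hg : g ∈ centralizer (E : Set G)) : ∃ F ∈ MF p c Z, g ∈ YF p c Z F := by
  obtain ⟨F, hF, hle⟩ := exists_max hE hZ
  exact ⟨F, hF, E, hle, hE, hZ, hg⟩

/-- The index of a maximal fan in its centralizer. -/
lemma Dat.relIndex_cent (T : Dat p Z c l w n) {F : Subgroup G} (hF : F ∈ MF p c Z) :
    F.relIndex (centralizer (F : Set G)) ≤ c ^ l * c := by
  obtain ⟨g, hgF, hgZ⟩ := SetLike.not_le_iff_exists.1 hF.2.1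
  have hle : centralizer (F : Set G) ≤ centralizer ({g} : Set G) := by
    refine Subgroup.centralizer_le ?_
    rintro y rfl
    exact hgF
  obtain ⟨D, hD, hDa, hDp, hDi⟩ := T.ab g hgZ
  set C := centralizer (F : Set G) with hC
  have hDC : (D ⊓ C).relIndex C ≤ c := by
    rw [Subgroup.inf_relIndex_right]
    exact le_trans (relIndex_mono_right _ hle) hDi
  obtain ⟨E, hE, hEf, hEi⟩ := T.exists_fan (D ⊓ C)
    (inf_le_left.trans (hDa.trans (cent_anti inf_le_left)))
    (Nat.Coprime.of_dvd_left (Subgroup.card_dvd_of_le inf_le_left) hDp)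
  have hEF : E ≤ F := by
    have h1 : F ≤ centralizer (E : Set G) := le_cent_comm (hE.trans inf_le_right)
    rw [← hF.2.2 _ (fan_sup hF.1 hEf h1) le_sup_left]
    exact le_sup_right
  refine le_trans (relIndex_anti_left _ hEF) ?_
  rw [← Subgroup.relIndex_mul_relIndex _ _ _ hE inf_le_right]
  exact Nat.mul_le_mul hEi hDC

lemma Dat.relIndex_norm (T : Dat p Z c l w n) {F : Subgroup G} (hF : F ∈ MF p c Z) :
    F.relIndex (normalizer (F : Set G)) ≤ c ^ l * c * w := by
  have hle : centralizer (F : Set G) ≤ normalizer (F : Set G) :=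
    Subgroup.centralizer_le_normalizer _
  rw [← Subgroup.relIndex_mul_relIndex _ _ _ hF.1.1 hle]
  exact Nat.mul_le_mul (T.relIndex_cent hF) (T.nc F hF.1.1 hF.1.2.1)

/-- Elements not commuting with a nonscalar fan have small centralizers. -/
lemma Dat.small (T : Dat p Z c l w n) {g : G} (hg : g ∉ Z)
    (h : ∀ E : Subgroup G, Fan p c E → g ∈ centralizer (E : Set G) → E ≤ Z) :
    Nat.card (centralizer ({g} : Set G)) ≤ c ^ l * c * Nat.card Z := by
  obtain ⟨D, hD, hDa, hDp, hDi⟩ := T.ab g hg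
  obtain ⟨E, hE, hEf, hEi⟩ := T.exists_fan D hDa hDp
  have hEZ : E ≤ Z := by
    refine h E hEf ?_
    refine Subgroup.mem_centralizer_iff.2 (fun y hy => ?_)
    exact (Subgroup.mem_centralizer_iff.1 (hD (hE hy)) g rfl).symm
  have h1 : Nat.card E * E.relIndex (centralizer ({g} : Set G)) =
      Nat.card (centralizer ({g} : Set G)) := by
    have := Subgroup.relIndex_mul_relIndex ⊥ E (centralizer ({g} : Set G)) bot_le (hE.trans hD)
    rwa [Subgroup.relIndex_bot_left, Subgroup.relIndex_bot_left] at this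
  rw [← h1, ← Subgroup.relIndex_mul_relIndex _ _ _ hE hD, mul_comm]
  exact Nat.mul_le_mul (Nat.mul_le_mul hEi hDi) (Nat.card_le_card_of_injective
    (Subgroup.inclusion hEZ) (Subgroup.inclusion_injective hEZ))

end Cfsg.Agent.JFan
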