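import Cfsg.Agent.JFan.Orb

/-!
Conjugation invariance of fans.
-/

set_option autoImplicit false

namespace Cfsg.Agent.JFan

open Subgroup

universe u

variable {G : Type u} [Group G]

lemma cent_map (φ : G ≃* G) (H : Subgroup G) :
    centralizer ((H.map φ.toMonoidHom : Subgroup G) : Set G) =
      (centralizer (H : Set G)).map φ.toMonoidHom := by
  ext x
  constructor
  · intro hx
    refine ⟨φ.symm x, ?_, by simp⟩
    refine Subgroup.mem_centralizer_iff.2 (fun y hy => ?_)
    have h1 := Subgroup.mem_centralizer_iff.1 hx (φ y) ⟨y, hy, rfl⟩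
    have h2 := congrArg φ.symm h1
    simpa using h2
  · rintro ⟨y, hy, rfl⟩
    refine Subgroup.mem_centralizer_iff.2 ?_
    rintro _ ⟨z, hz, rfl⟩
    have h1 := congrArg φ (Subgroup.mem_centralizer_iff.1 hy z hz)
    simpa using h1

lemma map_symm_map (φ : G ≃* G) (H : Subgroup G) :
    (H.map φ.symm.toMonoidHom).map φ.toMonoidHom = H := by
  rw [Subgroup.map_map]
  have : φ.toMonoidHom.comp φ.symm.toMonoidHom = MonoidHom.id G := by ext x; simp
  rw [this, Subgroup.map_id]

lemma map_map_symm (φ : G ≃* G) (H : Subgroup G) :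
    (H.map φ.toMonoidHom).map φ.symm.toMonoidHom = H := by
  rw [Subgroup.map_map]
  have : φ.symm.toMonoidHom.comp φ.toMonoidHom = MonoidHom.id G := by ext x; simp
  rw [this, Subgroup.map_id]

lemma card_map (φ : G ≃* G) (H : Subgroup G) :
    Nat.card (H.map φ.toMonoidHom : Subgroup G) = Nat.card H :=
  (Nat.card_congr (H.equivMapOfInjective φ.toMonoidHom φ.injective).toEquiv).symm

lemma map_le_iff_symm (φ : G ≃* G) (H K : Subgroup G) :
    H.map φ.toMonoidHom ≤ K ↔ H ≤ K.map φ.symm.toMonoidHom := by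
  constructor
  · intro h
    rw [← map_map_symm φ H]
    exact Subgroup.map_mono h
  · intro h
    rw [← map_symm_map φ K]
    exact Subgroup.map_mono h

lemma Fan.map {p c : ℕ} {F : Subgroup G} (h : Fan p c F) (φ : G ≃* G) :
    Fan p c (F.map φ.toMonoidHom) := by
  refine ⟨?_, ?_, ?_⟩
  · rw [cent_map]; exact Subgroup.map_mono h.1
  · rw [card_map]; exact h.2.1
  · intro E hE hi
    have h1 : E.map φ.symm.toMonoidHom ≤ F := by
      rw [← map_map_symm φ F]; exact Subgroup.map_mono hE
    have h2 : (E.map φ.symm.toMonoidHom).relIndex F = E.relIndex (F.map φ.toMonoidHom) := by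
      rw [← Subgroup.relIndex_map_map_of_injective (f := φ.toMonoidHom) _ _ φ.injective,
        map_symm_map]
    have h3 := h.2.2 _ h1 (by rw [h2]; exact hi)
    have h4 := Subgroup.map_mono (f := φ.toMonoidHom) h3
    rw [← cent_map, ← cent_map, map_symm_map] at h4
    exact h4

lemma MF.map {p c : ℕ} {Z F : Subgroup G} (h : F ∈ MF p c Z) (φ : G ≃* G)
    (hφ : Z.map φ.toMonoidHom = Z) : F.map φ.toMonoidHom ∈ MF p c Z := by
  have hφ' : Z.map φ.symm.toMonoidHom = Z := by
    conv_lhs => rw [← hφ]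
    rw [map_map_symm]
  refine ⟨h.1.map φ, ?_, ?_⟩
  · rw [map_le_iff_symm, hφ']
    exact h.2.1
  · intro F' hF' hle
    have h1 := h.2.2 _ (hF'.map φ.symm) ((map_le_iff_symm φ F F').1 hle)
    have h2 := map_symm_map φ F'
    have h3 : (F'.map φ.symm.toMonoidHom) = F := h1
    rw [h3] at h2
    exact h2.symm

lemma YF_map {p c : ℕ} {Z F : Subgroup G} (φ : G ≃* G)
    (hφ : Z.map φ.toMonoidHom = Z) {g : G} (hg : g ∈ YF p c Z F) :
    φ g ∈ YF p c Z (F.map φ.toMonoidHom) := by
  have hφ' : Z.map φ.symm.toMonoidHom = Z := by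
    conv_lhs => rw [← hφ]
    rw [map_map_symm]
  obtain ⟨E, e1, f1, z1, c1⟩ := hg
  refine ⟨E.map φ.toMonoidHom, Subgroup.map_mono e1, f1.map φ, ?_, ?_⟩
  · rw [map_le_iff_symm, hφ']; exact z1
  · rw [cent_map]; exact ⟨g, c1, rfl⟩

lemma card_YF_map {p c : ℕ} {Z : Subgroup G} (F : Subgroup G) (φ : G ≃* G)
    (hφ : Z.map φ.toMonoidHom = Z) :
    Nat.card (YF p c Z (F.map φ.toMonoidHom)) = Nat.card (YF p c Z F) := by
  have hφ' : Z.map φ.symm.toMonoidHom = Z := by
    conv_lhs => rw [← hφ]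
    rw [map_map_symm]
  symm
  refine Nat.card_congr (Equiv.ofBijective (fun g => ⟨φ g.1, YF_map φ hφ g.2⟩) ⟨?_, ?_⟩)
  · intro a b hab
    exact Subtype.ext (φ.injective (congrArg Subtype.val hab))
  · rintro ⟨b, hb⟩
    have h1 := YF_map φ.symm hφ' hb
    rw [show (F.map φ.toMonoidHom).map φ.symm.toMonoidHom = F from map_map_symm φ F] at h1
    exact ⟨⟨φ.symm b, h1⟩, Subtype.ext (by simp)⟩

lemma conj_map_central {Z : Subgroup G} (hZ : Z ≤ center G) (x : G) :
    Z.map (MulAut.conj x).toMonoidHom = Z := by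
  have h : ∀ z ∈ Z, MulAut.conj x z = z := by
    intro z hz
    rw [MulAut.conj_apply, Subgroup.mem_center_iff.1 (hZ hz) x, mul_assoc, mul_inv_cancel, mul_one]
  ext y
  constructor
  · rintro ⟨z, hz, rfl⟩
    change MulAut.conj x z ∈ Z
    rw [h z hz]; exact hz
  · intro hy
    exact ⟨y, hy, h y hy⟩

/-- `|F|` divides `|Y_F|`. -/
lemma dvd_card_YF [Finite G] {p : ℕ} {Z : Subgroup G} {c : ℕ}
    {F : Subgroup G} (hF : F ∈ MF p c Z) : Nat.card F ∣ Nat.card (YF p c Z F) := by
  classical
  let _ := Fintype.ofFinite G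
  let act : MulAction F (YF p c Z F) :=
    { smul := fun f g => ⟨g.1 * (f : G), YF_mul hF g.2 f.2⟩
      one_smul := fun g => Subtype.ext (by change g.1 * ((1 : F) : G) = g.1; simp)
      mul_smul := fun a b g => Subtype.ext (by
        change g.1 * ((a * b : F) : G) = g.1 * (b : G) * (a : G)
        have : (a : G) * b = b * a :=
          (Subgroup.mem_centralizer_iff.1 (hF.1.1 a.2) b b.2).symm
        rw [Subgroup.coe_mul, this, mul_assoc]) }
  let _ := act
  let _ := Fintype.ofFinite (YF p c Z F)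
  have h := dvd_sum_of_orbits (A := F) (X := YF p c Z F) (fun _ => 1) (fun _ _ => rfl)
    (Nat.card F) (by
      intro g
      rw [mul_one]
      have h1 := card_orbit_mul (A := F) g
      have h2 : MulAction.stabilizer F g = ⊥ := by
        rw [eq_bot_iff]
        intro a ha
        have h3 : g.1 * (a : G) = g.1 := congrArg Subtype.val ha
        rw [Subgroup.mem_bot]
        exact Subtype.ext (mul_eq_left.1 h3)
      rw [h2, Subgroup.card_bot, mul_one] at h1
      rw [h1])
  rw [Finset.sum_const, Finset.card_univ, smul_eq_mul, mul_one, ← Nat.card_eq_fintype_card] at h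
  exact h

end Cfsg.Agent.JFan
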