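import Cfsg.Agent.JFan.Red

/-!
Linear groups with bounded Sylow `p`-subgroups in characteristic `p`: the induction.
-/

set_option autoImplicit false

namespace Cfsg.Agent.JFan

open Module Subgroup

universe u v w

section

variable {k : Type u} [Field k] {V : Type v} [AddCommGroup V] [Module k V]
  {G : Type w} [Group G] [Finite G]

lemma fact_le_of_dvd {p m a b : ℕ} (h : b.factorization p ≤ m) (hd : a ∣ b) (hb : b ≠ 0) :
    a.factorization p ≤ m :=
  (((Nat.factorization_le_iff_dvd (ne_zero_of_dvd_ne_zero hb hd) hb).2 hd) p).trans h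

/-- The induction hypothesis. -/
def IH (p m n b : ℕ) : Prop :=
  ∀ (k : Type u) [Field k] [IsAlgClosed k] [CharP k p] (V : Type v) [AddCommGroup V] [Module k V]
    [FiniteDimensional k V] (G : Type w) [Group G] [Finite G] (ρ : G →* (V →ₗ[k] V)),
    Function.Injective ρ → finrank k V ≤ n → (Nat.card G).factorization p ≤ m → Good p b G

/-- A group acting faithfully with a proper nonzero invariant subspace. -/
lemma good_of_invariant {p : ℕ} [Fact p.Prime] {m n b : ℕ} (ih : IH.{u, v, w} p m n b)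
    [IsAlgClosed k] [CharP k p] [FiniteDimensional k V] (ρ : G →* (V →ₗ[k] V))
    (hρ : Function.Injective ρ) (hn : finrank k V ≤ n + 1)
    (hm : (Nat.card G).factorization p ≤ m) (W : Submodule k V) (hW : ∀ g, W ≤ W.comap (ρ g))
    (h0 : W ≠ ⊥) (h1 : W ≠ ⊤) : Good p (b * b * p ^ m) G := by
  have hp : p.Prime := Fact.out
  let ρ₁ : G →* (W →ₗ[k] W) := Representation.subrepresentation ρ W hW
  let ρ₂ : G →* ((V ⧸ W) →ₗ[k] (V ⧸ W)) := Representation.quotient ρ W hW
  have d1 : finrank k W ≤ n := by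
    have := Submodule.finrank_lt h1
    omega
  have d2 : finrank k (V ⧸ W) ≤ n := by
    have h2 := Submodule.finrank_quotient_add_finrank W
    have h3 : 0 < finrank k W := by
      rw [Nat.pos_iff_ne_zero]
      intro h
      exact h0 (Submodule.finrank_eq_zero.1 h)
    omega
  have g1 : Good p b (G ⧸ (MonoidHom.ker ρ₁.toHomUnits)) := by
    refine ih k W (G ⧸ (MonoidHom.ker ρ₁.toHomUnits))
      ((Units.coeHom _).comp (QuotientGroup.kerLift ρ₁.toHomUnits)) ?_ d1 ?_
    · exact Units.val_injective.comp (QuotientGroup.kerLift_injective _)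
    · exact fact_le_of_dvd hm (Subgroup.card_quotient_dvd_card _) Nat.card_pos.ne'
  have g2 : Good p b (G ⧸ (MonoidHom.ker ρ₂.toHomUnits)) := by
    refine ih k (V ⧸ W) (G ⧸ (MonoidHom.ker ρ₂.toHomUnits))
      ((Units.coeHom _).comp (QuotientGroup.kerLift ρ₂.toHomUnits)) ?_ d2 ?_
    · exact Units.val_injective.comp (QuotientGroup.kerLift_injective _)
    · exact fact_le_of_dvd hm (Subgroup.card_quotient_dvd_card _) Nat.card_pos.ne'
  refine good_of_two hm _ _ ?_ g1 g2
  rintro ⟨x, hx1, hx2⟩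
  refine ⟨1, ?_⟩
  rw [pow_one]
  apply Subtype.ext
  change x ^ p = 1
  apply hρ
  rw [map_pow, map_one]
  have e1 : ∀ v : V, v ∈ W → ρ x v = v := by
    intro v hv
    have h2 : ρ₁ x = 1 := congrArg Units.val (MonoidHom.mem_ker.1 hx1)
    have h3 := congrArg Subtype.val (LinearMap.congr_fun h2 ⟨v, hv⟩)
    exact h3
  have e2 : ∀ v : V, ρ x v - v ∈ W := by
    intro v
    have h2 : ρ₂ x = 1 := congrArg Units.val (MonoidHom.mem_ker.1 hx2)
    have h3 := LinearMap.congr_fun h2 (Submodule.Quotient.mk v)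
    exact (Submodule.Quotient.eq W).1 h3
  have e3 : (ρ x - 1) ^ 2 = 0 := by
    ext v
    rw [pow_two]
    change (ρ x) ((ρ x) v - v) - ((ρ x) v - v) = 0
    rw [e1 _ (e2 v), sub_self]
  have e4 : (ρ x - 1) ^ p = 0 := pow_eq_zero_of_le hp.two_le e3
  rcases subsingleton_or_nontrivial (V →ₗ[k] V) with h | h
  · exact Subsingleton.elim _ _
  · haveI : CharP (V →ₗ[k] V) p :=
      charP_of_injective_algebraMap (algebraMap k (V →ₗ[k] V)).injective p
    have h3 := sub_pow_char_of_commute p (Commute.one_right (ρ x))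
    rw [e4, one_pow] at h3
    exact (sub_eq_zero.1 h3.symm)

/-- The scalars. -/
def Sc (ρ : G →* (V →ₗ[k] V)) : Subgroup G where
  carrier := {g | ∃ a : k, ρ g = a • 1}
  mul_mem' := by
    rintro x y ⟨a, ha⟩ ⟨b, hb⟩
    exact ⟨a * b, by rw [map_mul, ha, hb, smul_mul_smul_comm, one_mul]⟩
  one_mem' := ⟨1, by rw [map_one, one_smul]⟩
  inv_mem' := by
    rintro x ⟨a, ha⟩
    refine ⟨a ^ (orderOf x - 1), ?_⟩
    have h1 : x⁻¹ = x ^ (orderOf x - 1) := by
      refine inv_eq_of_mul_eq_one_left ?_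
      rw [← pow_succ, Nat.sub_add_cancel (orderOf_pos x), pow_orderOf_eq_one]
    rw [h1, map_pow, ha, smul_pow, one_pow]

lemma mem_Sc {ρ : G →* (V →ₗ[k] V)} {g : G} : g ∈ Sc ρ ↔ ∃ a : k, ρ g = a • 1 := Iff.rfl

lemma Sc_le_center {ρ : G →* (V →ₗ[k] V)} (hρ : Function.Injective ρ) : Sc ρ ≤ center G := by
  rintro x ⟨a, ha⟩
  rw [Subgroup.mem_center_iff]
  intro g
  apply hρ
  rw [map_mul, map_mul, ha, smul_mul_assoc, mul_smul_comm, one_mul, mul_one]

lemma card_Sc {p : ℕ} [Fact p.Prime] [CharP k p] {ρ : G →* (V →ₗ[k] V)}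
    (hρ : Function.Injective ρ) : (Nat.card (Sc ρ)).Coprime p := by
  have hp : p.Prime := Fact.out
  rw [Nat.coprime_comm, hp.coprime_iff_not_dvd]
  intro hd
  obtain ⟨x, hx⟩ := exists_prime_orderOf_dvd_card' p hd
  obtain ⟨a, ha⟩ := x.2
  have h1 : (x : G) ^ p = 1 := by
    have h2 : x ^ p = 1 := by rw [← hx]; exact pow_orderOf_eq_one x
    have h3 := congrArg Subtype.val h2
    exact h3
  have h2 : (a ^ p) • (1 : V →ₗ[k] V) = 1 := by
    have h3 := congrArg ρ h1
    rw [map_pow, ha, smul_pow, one_pow, map_one] at h3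
    exact h3
  have h3 : (x : G) = 1 := by
    apply hρ
    rw [ha, map_one]
    rcases subsingleton_or_nontrivial (V →ₗ[k] V) with h | h
    · exact Subsingleton.elim _ _
    · have h4 : a ^ p = 1 := by
        have h5 : (a ^ p - 1) • (1 : V →ₗ[k] V) = 0 := by
          rw [sub_smul, h2, one_smul, sub_self]
        rcases smul_eq_zero.1 h5 with h6 | h6
        · exact sub_eq_zero.1 h6
        · exact absurd h6 one_ne_zero
      have h5 : (a - 1) ^ p = 0 := by
        rw [sub_pow_char, h4, one_pow, sub_self]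
      have h6 : a = 1 := sub_eq_zero.1 (pow_eq_zero_iff hp.ne_zero |>.1 h5)
      rw [h6, one_smul]
  have h4 : x = 1 := Subtype.ext h3
  rw [h4, orderOf_one] at hx
  exact hp.one_lt.ne hx

/-- Centralizers of nonscalar elements are good. -/
lemma good_centralizer {p : ℕ} [Fact p.Prime] {m n b : ℕ} (ih : IH.{u, v, w} p m n b)
    [IsAlgClosed k] [CharP k p] [FiniteDimensional k V] (ρ : G →* (V →ₗ[k] V))
    (hρ : Function.Injective ρ) (hn : finrank k V ≤ n + 1)
    (hm : (Nat.card G).factorization p ≤ m) {g : G} (hg : g ∉ Sc ρ) :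
    Good p (b * b * p ^ m) (centralizer ({g} : Set G)) := by
  haveI : Nontrivial V := by
    by_contra hV
    rw [not_nontrivial_iff_subsingleton] at hV
    exact hg ⟨1, Subsingleton.elim _ _⟩
  obtain ⟨μ, hμ⟩ := Module.End.exists_eigenvalue (ρ g)
  refine good_of_invariant ih (ρ.comp (centralizer ({g} : Set G)).subtype)
    (hρ.comp (Subgroup.subtype_injective _)) hn
    (fact_le_of_dvd hm (Subgroup.card_subgroup_dvd_card _) Nat.card_pos.ne')
    (Module.End.eigenspace (ρ g) μ) ?_ hμ ?_
  · intro x v hv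
    rw [Submodule.mem_comap, Module.End.mem_eigenspace_iff]
    rw [Module.End.mem_eigenspace_iff] at hv
    have h1 : g * (x : G) = x * g := Subgroup.mem_centralizer_iff.1 x.2 g rfl
    have h2 := LinearMap.congr_fun (congrArg ρ h1) v
    rw [map_mul, map_mul] at h2
    change ρ g (ρ (x : G) v) = ρ (x : G) (ρ g v) at h2
    change ρ g (ρ (x : G) v) = μ • (ρ (x : G) v)
    rw [h2, hv, map_smul]
  · intro htop
    apply hg
    refine ⟨μ, ?_⟩
    ext v
    have : v ∈ Module.End.eigenspace (ρ g) μ := by rw [htop]; exact Submodule.mem_top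
    rw [Module.End.mem_eigenspace_iff] at this
    exact this

lemma cz_bound [FiniteDimensional k V] (ρ : G →* (V →ₗ[k] V)) (hρ : Function.Injective ρ)
    {n : ℕ} (hn : finrank k V ≤ n + 1) {g : G} (hg : g ∉ Sc ρ) (X : Subgroup G)
    (hX : ∀ x ∈ X, x * g * x⁻¹ * g⁻¹ ∈ Sc ρ) :
    Nat.card X ≤ (n + 1) * Nat.card (centralizer ({g} : Set G)) := by
  classical
  haveI : Nontrivial V := by
    by_contra hV
    rw [not_nontrivial_iff_subsingleton] at hV
    exact hg ⟨1, Subsingleton.elim _ _⟩
  have hd : 0 < finrank k V := Module.finrank_pos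
  choose a ha using fun x : X => mem_Sc.1 (hX x x.2)
  have h1 : ∀ x : X, ρ ((x : G) * g * (x : G)⁻¹) = a x • ρ g := by
    intro x
    have h2 : (x : G) * g * (x : G)⁻¹ = ((x : G) * g * (x : G)⁻¹ * g⁻¹) * g := by group
    rw [h2, map_mul, ha, smul_mul_assoc, one_mul]
  have hdet : ∀ y : G, LinearMap.det (ρ y) ≠ 0 := by
    intro y hy
    have h2 : LinearMap.det (ρ (y * y⁻¹)) = 1 := by
      rw [mul_inv_cancel, map_one]
      exact LinearMap.det_id
    rw [map_mul] at h2
    have h3 : LinearMap.det (ρ y * ρ y⁻¹) = LinearMap.det (ρ y) * LinearMap.det (ρ y⁻¹) :=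
      map_mul LinearMap.det _ _
    rw [h3, hy, zero_mul] at h2
    exact zero_ne_one h2
  have h2 : ∀ x : X, (a x) ^ (finrank k V) = 1 := by
    intro x
    have h3 := congrArg LinearMap.det (h1 x)
    have e0 : ρ ((x : G) * g * (x : G)⁻¹) = ρ (x : G) * ρ g * ρ (x : G)⁻¹ := by
      rw [map_mul, map_mul]
    rw [LinearMap.det_smul, e0] at h3
    have h4 : LinearMap.det (ρ (x : G) * ρ g * ρ (x : G)⁻¹) = LinearMap.det (ρ g) := by
      have h5 : LinearMap.det (ρ (x : G) * ρ g * ρ (x : G)⁻¹) =
          LinearMap.det (ρ (x : G)) * LinearMap.det (ρ g) * LinearMap.det (ρ (x : G)⁻¹) := by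
        rw [map_mul LinearMap.det, map_mul LinearMap.det]
      have h6 : LinearMap.det (ρ (x : G)) * LinearMap.det (ρ (x : G)⁻¹) = 1 := by
        rw [← map_mul LinearMap.det, ← map_mul, mul_inv_cancel, map_one]
        exact LinearMap.det_id
      rw [h5, mul_right_comm, h6, one_mul]
    rw [h4] at h3
    have h5 := hdet g
    have h6 : (a x ^ finrank k V) * LinearMap.det (ρ g) = 1 * LinearMap.det (ρ g) := by
      rw [one_mul]; exact h3.symm
    exact mul_right_cancel₀ h5 h6
  let R := Polynomial.nthRootsFinset (finrank k V) (1 : k)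
  have hR : R.card ≤ n + 1 := by
    refine le_trans ?_ hn
    exact (Multiset.toFinset_card_le _).trans (Polynomial.card_nthRoots _ _)
  have h3 : ((centralizer ({g} : Set G)).subgroupOf X).index ≤ Nat.card R := by
    refine index_le_of_fun _ (fun x => (⟨a x, (Polynomial.mem_nthRootsFinset hd 1).2 (h2 x)⟩ : R)) ?_
    intro x y hxy
    have h4 : a x = a y := congrArg Subtype.val hxy
    rw [Subgroup.mem_subgroupOf, Subgroup.mem_centralizer_iff]
    rintro z hz
    rw [Set.mem_singleton_iff] at hz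
    rw [hz]
    have h5 : (x : G) * g * (x : G)⁻¹ = (y : G) * g * (y : G)⁻¹ := by
      apply hρ
      rw [h1, h1, h4]
    change g * ((x : G)⁻¹ * (y : G)) = ((x : G)⁻¹ * (y : G)) * g
    have h6 : g * ((x : G)⁻¹ * (y : G)) = (x : G)⁻¹ * ((x : G) * g * (x : G)⁻¹) * (y : G) := by
      group
    rw [h6, h5]
    group
  have h4 : Nat.card X = ((centralizer ({g} : Set G)).subgroupOf X).index *
      Nat.card ((centralizer ({g} : Set G)).subgroupOf X) := (Subgroup.index_mul_card _).symm
  rw [h4]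
  refine Nat.mul_le_mul (h3.trans ?_) ?_
  · rw [Nat.card_eq_fintype_card, Fintype.card_coe]
    exact hR
  · refine Nat.card_le_card_of_injective
      (fun x : (centralizer ({g} : Set G)).subgroupOf X =>
        (⟨(x : X), x.2⟩ : centralizer ({g} : Set G))) ?_
    intro x y hxy
    have h5 : ((x : X) : G) = ((y : X) : G) :=
      congrArg (fun z : centralizer ({g} : Set G) => (z : G)) hxy
    exact Subtype.ext (Subtype.ext h5)

/-- The data for Jordan's argument. -/
lemma dat {p : ℕ} [Fact p.Prime] {m n b : ℕ} (ih : IH.{u, v, w} p m n b)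
    [IsAlgClosed k] [CharP k p] [FiniteDimensional k V] (ρ : G →* (V →ₗ[k] V))
    (hρ : Function.Injective ρ) (hn : finrank k V ≤ n + 1)
    (hm : (Nat.card G).factorization p ≤ m) :
    Dat p (Sc ρ) (b * b * p ^ m + 1) ((n + 1) * (n + 1))
      (((n + 1) * (n + 1)) ^ ((n + 1) * (n + 1))) (n + 1) := by
  have hl : finrank k V * finrank k V ≤ (n + 1) * (n + 1) := Nat.mul_le_mul hn hn
  refine ⟨Sc_le_center hρ, card_Sc hρ, by omega, ?_, ?_, ?_, ?_⟩
  · intro g hg
    obtain ⟨D, hD1, hD2, hD3⟩ := good_centralizer ih ρ hρ hn hm hg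
    refine ⟨D.map (centralizer ({g} : Set G)).subtype, ?_, ?_, ?_, ?_⟩
    · exact Subgroup.map_subtype_le D
    · rintro _ ⟨x, hx, rfl⟩
      rw [Subgroup.mem_centralizer_iff]
      rintro _ ⟨y, hy, rfl⟩
      have := congrArg (centralizer ({g} : Set G)).subtype
        (Subgroup.mem_centralizer_iff.1 (hD1 hx) y hy)
      simpa using this
    · rw [Nat.card_congr (D.equivMapOfInjective _
        (centralizer ({g} : Set G)).subtype_injective).toEquiv.symm]
      exact hD2
    · unfold Subgroup.relIndex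
      have h1 : (D.map (centralizer ({g} : Set G)).subtype).subgroupOf
          (centralizer ({g} : Set G)) = D :=
        Subgroup.comap_map_eq_self_of_injective (Subgroup.subtype_injective _) D
      rw [h1]
      omega
  · let Cz : Subgroup G → Submodule k (V →ₗ[k] V) := fun H =>
      Subalgebra.toSubmodule (Subalgebra.centralizer k (ρ '' (H : Set G)))
    have hmem : ∀ (H : Subgroup G) (f : V →ₗ[k] V), f ∈ Cz H ↔ ∀ h ∈ H, ρ h * f = f * ρ h := by
      intro H f
      constructor
      · intro hf h hh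
        exact (Subalgebra.mem_centralizer_iff k).1 hf (ρ h) ⟨h, hh, rfl⟩
      · intro hf
        refine (Subalgebra.mem_centralizer_iff k).2 ?_
        rintro _ ⟨h, hh, rfl⟩
        exact hf h hh
    refine ⟨fun H => finrank k (Cz H), fun H => ?_, fun E F hEF hne => ?_⟩
    · refine (Submodule.finrank_le _).trans ?_
      rw [Module.finrank_linearMap]
      exact hl
    · refine Submodule.finrank_lt_finrank_of_lt ?_
      have hle : Cz F ≤ Cz E := by
        intro f hf
        rw [hmem] at hf ⊢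
        exact fun h hh => hf h (hEF hh)
      refine lt_of_le_of_ne hle ?_
      intro heq
      apply hne
      refine le_antisymm ?_ (cent_anti hEF)
      intro x hx
      have h1 : ρ x ∈ Cz E := by
        rw [hmem]
        intro h hh
        rw [← map_mul, ← map_mul, Subgroup.mem_centralizer_iff.1 hx h hh]
      rw [← heq, hmem] at h1
      rw [Subgroup.mem_centralizer_iff]
      intro h hh
      apply hρ
      rw [map_mul, map_mul]
      exact h1 h hh
  · intro A hA hAp
    exact norm_bound ρ hρ A hA hAp hl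
  · intro g hg X hX
    exact cz_bound ρ hρ hn hg X hX

end

/-- The theorem over algebraically closed fields. -/
theorem exists_bound (p : ℕ) [Fact p.Prime] (m : ℕ) : ∀ n : ℕ, ∃ b : ℕ, IH.{u, v, w} p m n b := by
  intro n
  induction n with
  | zero =>
    refine ⟨1, ?_⟩
    intro k _ _ _ V _ _ _ G _ _ ρ hρ hn hm
    have hV : Subsingleton V := by
      rw [← Module.finrank_zero_iff (R := k)]
      omega
    have hG : Subsingleton G := ⟨fun x y => hρ (Subsingleton.elim _ _)⟩
    refine ⟨⊤, ?_, ?_, ?_⟩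
    · intro x _
      rw [Subgroup.mem_centralizer_iff]
      intro y _
      exact Subsingleton.elim _ _
    · rw [Nat.card_unique]
      exact Nat.coprime_one_left p
    · rw [Subgroup.index_top]
  | succ n ihn =>
    obtain ⟨b, hb⟩ := ihn
    refine ⟨bnd ((n + 1) * ((b * b * p ^ m + 1) ^ ((n + 1) * (n + 1)) * (b * b * p ^ m + 1)))
      ((b * b * p ^ m + 1) ^ ((n + 1) * (n + 1)) * (b * b * p ^ m + 1) *
        (((n + 1) * (n + 1)) ^ ((n + 1) * (n + 1)))), ?_⟩
    intro k _ _ _ V _ _ _ G _ _ ρ hρ hn hm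
    let _ := Fintype.ofFinite G
    exact (dat hb ρ hρ hn hm).main

end Cfsg.Agent.JFan
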