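import Cfsg.Agent.JFan.Fan

/-!
The two group actions used in the count, and the sizes of their orbits.
-/

set_option autoImplicit false

namespace Cfsg.Agent.JFan

open Subgroup

universe u v

lemma dvd_sum_of_orbits {A : Type u} {X : Type v} [Group A] [Finite A] [Fintype X]
    [MulAction A X] (f : X → ℕ) (hf : ∀ (a : A) (x : X), f (a • x) = f x) (N : ℕ)
    (h : ∀ x : X, N ∣ Nat.card (MulAction.orbit A x) * f x) : N ∣ ∑ x, f x := by
  classical
  haveI : Fintype (Quotient (MulAction.orbitRel A X)) := Fintype.ofFinite _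
  rw [← Finset.sum_fiberwise (s := (Finset.univ : Finset X))
    (g := fun x => (Quotient.mk (MulAction.orbitRel A X) x)) (f := f)]
  refine Finset.dvd_sum (fun q _ => ?_)
  obtain ⟨x0, rfl⟩ := Quotient.exists_rep q
  have h1 : ∀ x ∈ Finset.univ.filter (fun x : X =>
      (Quotient.mk (MulAction.orbitRel A X) x) = Quotient.mk (MulAction.orbitRel A X) x0),
      f x = f x0 := by
    intro x hx
    have hx' := (Finset.mem_filter.1 hx).2
    obtain ⟨a, ha⟩ := (MulAction.orbitRel_apply (G := A)).1 (Quotient.exact hx')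
    rw [← ha]
    exact hf a x0
  rw [Finset.sum_congr rfl h1, Finset.sum_const, smul_eq_mul]
  have h2 : (Finset.univ.filter (fun x : X =>
      (Quotient.mk (MulAction.orbitRel A X) x) = Quotient.mk (MulAction.orbitRel A X) x0)).card =
      Nat.card (MulAction.orbit A x0) := by
    rw [Nat.card_eq_card_toFinset]
    congr 1
    ext x
    rw [Finset.mem_filter, Set.mem_toFinset]
    constructor
    · intro hx
      exact (MulAction.orbitRel_apply (G := A)).1 (Quotient.exact hx.2)
    · intro hx
      exact ⟨Finset.mem_univ _, Quotient.sound ((MulAction.orbitRel_apply (G := A)).2 hx)⟩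
  rw [h2]
  exact h x0

lemma card_orbit_mul {A : Type u} {X : Type v} [Group A] [Finite A] [MulAction A X] (x : X) :
    Nat.card (MulAction.orbit A x) * Nat.card (MulAction.stabilizer A x) = Nat.card A := by
  rw [mul_comm, Nat.card_congr (MulAction.orbitEquivQuotientStabilizer A x)]
  rw [← Subgroup.index_eq_card]
  exact Subgroup.card_mul_index _

variable {G : Type u} [Group G]

/-- Conjugation on subgroups. -/
@[reducible] def cjAct : MulAction G (Subgroup G) where
  smul x H := H.map (MulAut.conj x).toMonoidHom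
  one_smul H := by
    change H.map (MulAut.conj (1 : G)).toMonoidHom = H
    ext y
    simp [Subgroup.mem_map]
  mul_smul x y H := by
    change H.map (MulAut.conj (x * y)).toMonoidHom =
      (H.map (MulAut.conj y).toMonoidHom).map (MulAut.conj x).toMonoidHom
    rw [Subgroup.map_map]
    congr 1
    ext z
    simp [mul_assoc]

/-- Conjugation and multiplication by central elements. -/
@[reducible] def twAct (Z : Subgroup G) (hZ : Z ≤ center G) : MulAction (G × Z) G where
  smul a g := a.1 * g * a.1⁻¹ * a.2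
  one_smul g := by
    change (1 : G × Z).1 * g * (1 : G × Z).1⁻¹ * (1 : G × Z).2 = g
    simp
  mul_smul a b g := by
    change (a * b).1 * g * (a * b).1⁻¹ * (a * b).2 =
      a.1 * (b.1 * g * b.1⁻¹ * b.2) * a.1⁻¹ * a.2
    have h1 : ((b.2 : Z) : G) * a.1⁻¹ = a.1⁻¹ * b.2 :=
      (Subgroup.mem_center_iff.1 (hZ b.2.2) a.1⁻¹).symm
    have h2 : ((b.2 : Z) : G) * a.2 = a.2 * b.2 :=
      (Subgroup.mem_center_iff.1 (hZ b.2.2) a.2).symm
    simp only [Prod.fst_mul, Prod.snd_mul, Subgroup.coe_mul, mul_inv_rev, mul_assoc]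
    rw [← mul_assoc (b.2 : G), h1, mul_assoc, h2]

section

attribute [local instance] cjAct

lemma cj_smul (x : G) (H : Subgroup G) : x • H = H.map (MulAut.conj x).toMonoidHom := rfl

lemma stab_cj (H : Subgroup G) : MulAction.stabilizer G H = normalizer (H : Set G) := by
  ext x
  rw [MulAction.mem_stabilizer_iff, cj_smul, Subgroup.mem_normalizer_iff_map_conj_eq]
  rfl

lemma orbit_cj [Finite G] (H : Subgroup G) :
    Nat.card (MulAction.orbit G H) * Nat.card (normalizer (H : Set G)) = Nat.card G := by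
  rw [← stab_cj]
  exact card_orbit_mul H

end

section

variable [Finite G]

lemma orbit_tw (Z : Subgroup G) (hZ : Z ≤ center G) (g : G) :
    ∃ X : Subgroup G, (∀ x ∈ X, x * g * x⁻¹ * g⁻¹ ∈ Z) ∧ Z ≤ X ∧
    (letI := twAct Z hZ; Nat.card (MulAction.orbit (G × Z) g)) * Nat.card X =
      Nat.card G * Nat.card Z := by
  letI := twAct Z hZ
  have hs : ∀ (a : G × Z) (g : G), a • g = a.1 * g * a.1⁻¹ * a.2 := fun _ _ => rfl
  refine ⟨(MulAction.stabilizer (G × Z) g).map (MonoidHom.fst G Z), ?_, ?_, ?_⟩
  · rintro x ⟨a, ha, rfl⟩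
    have h1 : a • g = g := ha
    rw [hs] at h1
    have h2 : a.1 * g * a.1⁻¹ = g * (a.2 : G)⁻¹ := eq_mul_inv_of_mul_eq h1
    change a.1 * g * a.1⁻¹ * g⁻¹ ∈ Z
    rw [h2]
    have h3 : g * (a.2 : G)⁻¹ = (a.2 : G)⁻¹ * g :=
      Subgroup.mem_center_iff.1 (inv_mem (hZ a.2.2)) g
    rw [h3, mul_assoc, mul_inv_cancel, mul_one]
    exact inv_mem a.2.2
  · intro z hz
    refine ⟨(z, 1), ?_, rfl⟩
    change (z, (1 : Z)) • g = g
    rw [hs]
    have h3 : g * z = z * g := Subgroup.mem_center_iff.1 (hZ hz) g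
    simp only [Subgroup.coe_one, mul_one]
    rw [← h3, mul_assoc, mul_inv_cancel, mul_one]
  · have h1 : Nat.card ((MulAction.stabilizer (G × Z) g).map (MonoidHom.fst G Z)) =
        Nat.card (MulAction.stabilizer (G × Z) g) := by
      symm
      refine Nat.card_congr (Equiv.ofBijective
        (fun a => ⟨a.1.1, ⟨a.1, a.2, rfl⟩⟩) ⟨?_, ?_⟩)
      · rintro ⟨a, ha⟩ ⟨b, hb⟩ hab
        have hab' : a.1 = b.1 := congrArg Subtype.val hab
        have h1 : a • g = g := ha
        have h2 : b • g = g := hb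
        rw [hs] at h1 h2
        have h3 : a.2 = b.2 := by
          apply Subtype.ext
          have h4 := h1.trans h2.symm
          rw [hab'] at h4
          exact mul_left_cancel h4
        exact Subtype.ext (Prod.ext hab' h3)
      · rintro ⟨x, ⟨a, ha, rfl⟩⟩
        exact ⟨⟨a, ha⟩, rfl⟩
    rw [h1, card_orbit_mul, Nat.card_prod]

end

end Cfsg.Agent.JFan
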