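import Mathlib

/-!
Weights of an abelian `p'`-subgroup of a linear group: the normalizer modulo the centralizer is
bounded.
-/

set_option autoImplicit false

namespace Cfsg.Agent.JFan

open Module

universe u v w

lemma index_le_of_fun {N : Type u} [Group N] (C : Subgroup N) {T : Type v} [Finite T]
    (f : N → T) (h : ∀ x y : N, f x = f y → x⁻¹ * y ∈ C) : C.index ≤ Nat.card T := by
  rw [Subgroup.index_eq_card]
  refine Nat.card_le_card_of_injective (fun q : N ⧸ C => f (Quotient.out q)) ?_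
  intro q r hqr
  have h1 := h _ _ hqr
  have h2 : ((Quotient.out q : N) : N ⧸ C) = ((Quotient.out r : N) : N ⧸ C) :=
    QuotientGroup.eq.2 h1
  have h3 : ((Quotient.out q : N) : N ⧸ C) = q := Quotient.out_eq q
  have h4 : ((Quotient.out r : N) : N ⧸ C) = r := Quotient.out_eq r
  rw [h3, h4] at h2
  exact h2

/-- Algebra homomorphisms to an algebraically closed field detect non-nilpotent elements. -/
lemma nilpotent_of_algHom {k : Type u} [Field k] [IsAlgClosed k] {B : Type v} [CommRing B]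
    [Algebra k B] [FiniteDimensional k B] (b : B) (hb : ∀ φ : B →ₐ[k] k, φ b = 0) :
    IsNilpotent b := by
  rw [nilpotent_iff_mem_prime]
  intro P hP
  by_contra hbP
  haveI : FiniteDimensional k (B ⧸ P) := inferInstance
  haveI : Algebra.IsIntegral k (B ⧸ P) := inferInstance
  have hF : IsField (B ⧸ P) := by
    have h := (Algebra.IsIntegral.isField_iff_isField (R := k) (S := B ⧸ P)
      (algebraMap k (B ⧸ P)).injective)
    exact h.1 (Field.toIsField k)
  have hne : Ideal.Quotient.mk P b ≠ 0 := fun h => hbP (Ideal.Quotient.eq_zero_iff_mem.1 h)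
  obtain ⟨c, hc⟩ := hF.mul_inv_cancel hne
  let ψ : (B ⧸ P) →ₐ[k] k := IsAlgClosed.lift
  have h1 := hb (ψ.comp (Ideal.Quotient.mkₐ k P))
  have h2 : ψ (Ideal.Quotient.mk P b) = 0 := h1
  have h3 := congrArg ψ hc
  rw [map_mul, h2, zero_mul, map_one] at h3
  exact zero_ne_one h3

section

variable {k : Type u} [Field k] [IsAlgClosed k] {V : Type v} [AddCommGroup V] [Module k V]
  [FiniteDimensional k V] {G : Type w} [Group G] [Finite G]

/-- A unipotent element of `p'`-order is trivial. -/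
lemma eq_one_of_unip {p : ℕ} [Fact p.Prime] [CharP k p] (ρ : G →* (V →ₗ[k] V))
    (hρ : Function.Injective ρ) (A : Subgroup G) (hAp : (Nat.card A).Coprime p) {a : G}
    (ha : a ∈ A) (hn : IsNilpotent (ρ a - 1)) : a = 1 := by
  obtain ⟨m, hm⟩ := hn
  have hpm : m ≤ p ^ m := (Nat.lt_pow_self (Nat.Prime.one_lt Fact.out)).le
  have h1 : (ρ a - 1) ^ (p ^ m) = 0 := pow_eq_zero_of_le hpm hm
  haveI : CharP (V →ₗ[k] V) p ∨ Subsingleton (V →ₗ[k] V) := by
    rcases subsingleton_or_nontrivial (V →ₗ[k] V) with h | h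
    · exact Or.inr h
    · exact Or.inl (charP_of_injective_algebraMap (algebraMap k (V →ₗ[k] V)).injective p)
  have h2 : ρ (a ^ (p ^ m)) = 1 := by
    rcases this with h | h
    · have h3 := sub_pow_char_pow_of_commute p m (Commute.one_right (ρ a))
      rw [h1, one_pow] at h3
      rw [map_pow]
      exact (sub_eq_zero.1 h3.symm)
    · exact Subsingleton.elim _ _
  have h3 : a ^ (p ^ m) = 1 := hρ (by rw [h2, map_one])
  have h4 : orderOf a ∣ p ^ m := orderOf_dvd_of_pow_eq_one h3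
  have h5 : orderOf a ∣ Nat.card A := by
    have := orderOf_dvd_natCard (⟨a, ha⟩ : A)
    rwa [Subgroup.orderOf_mk] at this
  have h6 : orderOf a = 1 := Nat.eq_one_of_dvd_coprimes (Nat.Coprime.pow_right m hAp) h5 h4
  exact orderOf_eq_one_iff.1 h6

/-- The characters of `A` occurring in the matrix coefficients. -/
def Om (ρ : G →* (V →ₗ[k] V)) (A : Subgroup G) : Set (A →* k) :=
  {χ | ∃ Φ : Dual k (V →ₗ[k] V), ∀ a : A, χ a = Φ (ρ a)}

omit [IsAlgClosed k] [Finite G] in
lemma card_Om (ρ : G →* (V →ₗ[k] V)) (A : Subgroup G) :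
    Finite (Om ρ A) ∧ Nat.card (Om ρ A) ≤ finrank k V * finrank k V := by
  let T : Dual k (V →ₗ[k] V) →ₗ[k] (A → k) :=
    { toFun := fun Φ a => Φ (ρ a)
      map_add' := fun _ _ => rfl
      map_smul' := fun _ _ => rfl }
  let M := LinearMap.range T
  have hmem : ∀ χ : Om ρ A, (⇑(χ.1) : A → k) ∈ M := by
    rintro ⟨χ, Φ, hΦ⟩
    exact ⟨Φ, funext (fun a => (hΦ a).symm)⟩
  let F : Om ρ A → M := fun χ => ⟨⇑(χ.1), hmem χ⟩
  have hli0 : LinearIndependent k (fun χ : A →* k => (⇑χ : A → k)) := linearIndependent_monoidHom A k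
  have hli1 : LinearIndependent k (fun χ : Om ρ A => (⇑(χ.1) : A → k)) :=
    hli0.comp (fun χ : Om ρ A => χ.1) Subtype.val_injective
  have hli : LinearIndependent k F := LinearIndependent.of_comp M.subtype hli1
  haveI : Finite (Om ρ A) := hli.finite
  refine ⟨this, ?_⟩
  letI := Fintype.ofFinite (Om ρ A)
  rw [Nat.card_eq_fintype_card]
  refine (hli.fintype_card_le_finrank).trans ?_
  refine (LinearMap.finrank_range_le T).trans ?_
  rw [Subspace.dual_finrank_eq, Module.finrank_linearMap]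

/-- Characters in `Om` separate the elements of `A`. -/
lemma sep_Om {p : ℕ} [Fact p.Prime] [CharP k p] (ρ : G →* (V →ₗ[k] V))
    (hρ : Function.Injective ρ) (A : Subgroup G) (hA : A ≤ Subgroup.centralizer (A : Set G))
    (hAp : (Nat.card A).Coprime p) (a : A) (ha : ∀ χ ∈ Om ρ A, χ a = 1) : a = 1 := by
  have hcomm : ∀ x ∈ ρ '' (A : Set G), ∀ y ∈ ρ '' (A : Set G), x * y = y * x := by
    rintro _ ⟨x, hx, rfl⟩ _ ⟨y, hy, rfl⟩
    rw [← map_mul, ← map_mul, Subgroup.mem_centralizer_iff.1 (hA hy) x hx]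
  let B := Algebra.adjoin k (ρ '' (A : Set G))
  letI : CommRing B := Algebra.adjoinCommRingOfComm k hcomm
  have hmem : ∀ x : A, ρ x ∈ B := fun x => Algebra.subset_adjoin ⟨x, x.2, rfl⟩
  haveI : FiniteDimensional k B := FiniteDimensional.finiteDimensional_subalgebra B
  have key : IsNilpotent ((⟨ρ a, hmem a⟩ : B) - 1) := by
    refine nilpotent_of_algHom (k := k) _ (fun φ => ?_)
    rw [map_sub, map_one, sub_eq_zero]
    let χ : A →* k :=
      { toFun := fun x => φ ⟨ρ x, hmem x⟩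
        map_one' := by
          have : (⟨ρ (1 : A), hmem 1⟩ : B) = 1 := Subtype.ext (by simp)
          rw [this, map_one]
        map_mul' := fun x y => by
          have : (⟨ρ ((x * y : A) : G), hmem (x * y)⟩ : B) = ⟨ρ x, hmem x⟩ * ⟨ρ y, hmem y⟩ :=
            Subtype.ext (by simp)
          rw [this, map_mul] }
    refine ha χ ?_
    obtain ⟨Φ, hΦ⟩ := LinearMap.exists_extend (p := Subalgebra.toSubmodule B) φ.toLinearMap
    refine ⟨Φ, fun x => ?_⟩
    have := LinearMap.congr_fun hΦ ⟨ρ x, hmem x⟩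
    exact this.symm
  have h2 : IsNilpotent (ρ (a : G) - 1) := by
    obtain ⟨m, hm⟩ := key
    refine ⟨m, ?_⟩
    have := congrArg (Subtype.val) hm
    simpa using this
  exact Subtype.ext (eq_one_of_unip ρ hρ A hAp a.2 h2)

/-- The normalizer of an abelian `p'`-subgroup modulo its centralizer is bounded. -/
lemma norm_bound {p : ℕ} [Fact p.Prime] [CharP k p] (ρ : G →* (V →ₗ[k] V))
    (hρ : Function.Injective ρ) (A : Subgroup G) (hA : A ≤ Subgroup.centralizer (A : Set G))
    (hAp : (Nat.card A).Coprime p) {l : ℕ} (hl : finrank k V * finrank k V ≤ l) :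
    (Subgroup.centralizer (A : Set G)).relIndex (Subgroup.normalizer (A : Set G)) ≤ l ^ l := by
  obtain ⟨hfin, hcard⟩ := card_Om ρ A
  set N := Subgroup.normalizer (A : Set G) with hN
  have hmem : ∀ (x : N) (a : A), (x : G) * a * (x : G)⁻¹ ∈ A := fun x a =>
    ((Subgroup.mem_normalizer_iff.1 x.2) a).1 a.2
  let cj : N → (A →* A) := fun x =>
    { toFun := fun a => ⟨(x : G) * a * (x : G)⁻¹, hmem x a⟩
      map_one' := Subtype.ext (by simp)
      map_mul' := fun a b => Subtype.ext (by simp [mul_assoc]) }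
  have hOm : ∀ (x : N) (χ : A →* k), χ ∈ Om ρ A → χ.comp (cj x) ∈ Om ρ A := by
    rintro x χ ⟨Φ, hΦ⟩
    let S : (V →ₗ[k] V) →ₗ[k] (V →ₗ[k] V) :=
      (LinearMap.mulLeft k (ρ (x : G))).comp (LinearMap.mulRight k (ρ ((x : G)⁻¹)))
    refine ⟨Φ.comp S, fun a => ?_⟩
    change χ (cj x a) = Φ (ρ x * (ρ a * ρ ((x : G)⁻¹)))
    rw [hΦ, ← map_mul, ← map_mul]
    change Φ (ρ ((x : G) * a * (x : G)⁻¹)) = _
    rw [mul_assoc]
  have h1 : ((Subgroup.centralizer (A : Set G)).subgroupOf N).index ≤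
      Nat.card (Om ρ A → Om ρ A) := by
    refine index_le_of_fun _ (fun x χ => ⟨χ.1.comp (cj x), hOm x χ.1 χ.2⟩) ?_
    intro x y hxy
    rw [Subgroup.mem_subgroupOf, Subgroup.mem_centralizer_iff]
    intro a ha
    have h2 : (cj x ⟨a, ha⟩) * (cj y ⟨a, ha⟩)⁻¹ = 1 := by
      refine sep_Om ρ hρ A hA hAp _ (fun χ hχ => ?_)
      have h3 := congrFun hxy ⟨χ, hχ⟩
      have h4 : χ.comp (cj x) = χ.comp (cj y) := congrArg Subtype.val h3
      have h5 := DFunLike.congr_fun h4 ⟨a, ha⟩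
      have h6 : χ (cj x ⟨a, ha⟩) = χ (cj y ⟨a, ha⟩) := h5
      rw [map_mul, h6, ← map_mul, mul_inv_cancel, map_one]
    have h3 : cj x ⟨a, ha⟩ = cj y ⟨a, ha⟩ := mul_inv_eq_one.1 h2
    have h4 : (x : G) * a * (x : G)⁻¹ = (y : G) * a * (y : G)⁻¹ := congrArg Subtype.val h3
    change a * ((x : G)⁻¹ * (y : G)) = ((x : G)⁻¹ * (y : G)) * a
    have h5 : a * (x : G)⁻¹ = (x : G)⁻¹ * ((y : G) * a * (y : G)⁻¹) := by
      rw [← h4]; group
    rw [← mul_assoc, h5]
    group
  refine h1.trans ?_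
  letI := Fintype.ofFinite (Om ρ A)
  rw [Nat.card_fun]
  have h2 : Nat.card (Om ρ A) ≤ l := hcard.trans hl
  rcases Nat.eq_zero_or_pos (Nat.card (Om ρ A)) with h0 | h0
  · rw [h0, pow_zero]
    rcases Nat.eq_zero_or_pos l with hl0 | hl0
    · rw [hl0]; simp
    · exact Nat.one_le_pow _ _ hl0
  · exact (Nat.pow_le_pow_left h2 _).trans (Nat.pow_le_pow_right (lt_of_lt_of_le h0 h2) h2)

end

end Cfsg.Agent.JFan
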