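import Cfsg.Agent.JFan.Abs
import Cfsg.Agent.JFan.Wt

/-!
Reduction to a proper invariant subspace.
-/

set_option autoImplicit false

namespace Cfsg.Agent.JFan

open Module Subgroup

universe u v w

/-- `G` has an abelian `p'`-subgroup of index at most `b`. -/
def Good (p b : ℕ) (G : Type u) [Group G] : Prop :=
  ∃ A : Subgroup G, A ≤ centralizer (A : Set G) ∧ (Nat.card A).Coprime p ∧ A.index ≤ b

section

variable {G : Type u} [Group G] [Finite G] {p : ℕ} [Fact p.Prime]

/-- The order of a `p`-subgroup. -/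
lemma card_le_of_pgroup {m : ℕ} (hm : (Nat.card G).factorization p ≤ m) (Q : Subgroup G)
    (hQ : IsPGroup p Q) : Nat.card Q ≤ p ^ m := by
  obtain ⟨s, hs⟩ := IsPGroup.iff_card.1 hQ
  have hp : p.Prime := Fact.out
  have h1 : p ^ s ∣ Nat.card G := by rw [← hs]; exact Subgroup.card_subgroup_dvd_card Q
  have h2 : s ≤ m := ((hp.pow_dvd_iff_le_factorization Nat.card_pos.ne').1 h1).trans hm
  rw [hs]
  exact Nat.pow_le_pow_right hp.pos h2

/-- A group with commutators in a `p`-subgroup. -/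
lemma good_of_commutator {m : ℕ} (hm : (Nat.card G).factorization p ≤ m) (U : Subgroup G)
    (hU : IsPGroup p U) (hc : commutator G ≤ U) : Good p (p ^ m) G := by
  obtain ⟨Q, hQ⟩ := hU.exists_le_sylow
  have hQn : (Q : Subgroup G).Normal := Subgroup.Normal.of_commutator_le G (hc.trans hQ)
  obtain ⟨H, hH⟩ := Subgroup.exists_right_complement'_of_coprime (N := (Q : Subgroup G))
    (Sylow.card_coprime_index Q)
  refine ⟨H, ?_, ?_, ?_⟩
  · intro x hx
    rw [Subgroup.mem_centralizer_iff]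
    intro y hy
    have hy' : y ∈ H := hy
    have h1 : y * x * y⁻¹ * x⁻¹ ∈ (Q : Subgroup G) ⊓ H := by
      refine ⟨?_, H.mul_mem (H.mul_mem (H.mul_mem hy' hx) (H.inv_mem hy')) (H.inv_mem hx)⟩
      exact hQ (hc (Subgroup.commutator_mem_commutator (Subgroup.mem_top y) (Subgroup.mem_top x)))
    rw [hH.disjoint.eq_bot, Subgroup.mem_bot] at h1
    have h2 : y * x * y⁻¹ * x⁻¹ * x * y = y * x := by group
    rw [h1] at h2
    rw [← h2, one_mul]
  · have h1 : Nat.card H = (Q : Subgroup G).index := by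
      have h2 := hH.card_mul_card
      have h3 := Subgroup.card_mul_index (Q : Subgroup G)
      rw [← h3] at h2
      exact Nat.eq_of_mul_eq_mul_left Nat.card_pos h2
    have hp : p.Prime := Fact.out
    rw [h1]
    exact (hp.coprime_iff_not_dvd.2 (Sylow.not_dvd_index Q)).symm
  · have h1 : H.index = Nat.card Q := by
      have h2 := hH.card_mul_card
      have h3 := Subgroup.index_mul_card H
      rw [← h3] at h2
      exact (Nat.eq_of_mul_eq_mul_right Nat.card_pos h2).symm
    rw [h1]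
    exact card_le_of_pgroup hm _ Q.2

omit [Finite G] in
lemma Good.mono {b b' : ℕ} (h : Good p b G) (hb : b ≤ b') : Good p b' G := by
  obtain ⟨A, h1, h2, h3⟩ := h
  exact ⟨A, h1, h2, h3.trans hb⟩

/-- Two quotients with the intersection of the kernels a `p`-group. -/
lemma good_of_two {m b : ℕ} (hm : (Nat.card G).factorization p ≤ m) (K₁ K₂ : Subgroup G)
    [K₁.Normal] [K₂.Normal] (hU : IsPGroup p (K₁ ⊓ K₂ : Subgroup G))
    (h1 : Good p b (G ⧸ K₁)) (h2 : Good p b (G ⧸ K₂)) : Good p (b * b * p ^ m) G := by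
  obtain ⟨A₁, a1, -, i1⟩ := h1
  obtain ⟨A₂, a2, -, i2⟩ := h2
  set B₁ := A₁.comap (QuotientGroup.mk' K₁) with hB1
  set B₂ := A₂.comap (QuotientGroup.mk' K₂) with hB2
  have e1 : B₁.index ≤ b := by
    rw [hB1, Subgroup.index_comap_of_surjective _ (QuotientGroup.mk'_surjective K₁)]; exact i1
  have e2 : B₂.index ≤ b := by
    rw [hB2, Subgroup.index_comap_of_surjective _ (QuotientGroup.mk'_surjective K₂)]; exact i2
  set B := B₁ ⊓ B₂ with hB
  have e3 : B.index ≤ b * b := (Subgroup.index_inf_le).trans (Nat.mul_le_mul e1 e2)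
  have hcm : ∀ (K : Subgroup G) [K.Normal] (A : Subgroup (G ⧸ K)),
      A ≤ centralizer (A : Set (G ⧸ K)) → ∀ x y : G, QuotientGroup.mk' K x ∈ A →
      QuotientGroup.mk' K y ∈ A → x * y * x⁻¹ * y⁻¹ ∈ K := by
    intro K _ A hA x y hx hy
    rw [← QuotientGroup.eq_one_iff]
    change (QuotientGroup.mk' K) (x * y * x⁻¹ * y⁻¹) = 1
    rw [map_mul, map_mul, map_mul, map_inv, map_inv,
      Subgroup.mem_centralizer_iff.1 (hA hy) _ hx]
    group
  have hcomm : commutator B ≤ (K₁ ⊓ K₂ : Subgroup G).subgroupOf B := by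
    rw [commutator_def, Subgroup.commutator_le]
    intro x _ y _
    rw [Subgroup.mem_subgroupOf]
    change (x : G) * y * (x : G)⁻¹ * (y : G)⁻¹ ∈ K₁ ⊓ K₂
    exact ⟨hcm K₁ A₁ a1 _ _ x.2.1 y.2.1, hcm K₂ A₂ a2 _ _ x.2.2 y.2.2⟩
  have hmB : (Nat.card B).factorization p ≤ m :=
    (((Nat.factorization_le_iff_dvd Nat.card_pos.ne' Nat.card_pos.ne').2
      (Subgroup.card_subgroup_dvd_card B)) p).trans hm
  obtain ⟨A, hA1, hA2, hA3⟩ := good_of_commutator hmB _
    (hU.comap_of_injective B.subtype B.subtype_injective) hcomm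
  refine ⟨A.map B.subtype, ?_, ?_, ?_⟩
  · rintro _ ⟨x, hx, rfl⟩
    rw [Subgroup.mem_centralizer_iff]
    rintro _ ⟨y, hy, rfl⟩
    have := congrArg B.subtype (Subgroup.mem_centralizer_iff.1 (hA1 hx) y hy)
    simpa using this
  · rw [Nat.card_congr (A.equivMapOfInjective _ B.subtype_injective).toEquiv.symm]
    exact hA2
  · rw [Subgroup.index_map_subtype, mul_comm]
    exact Nat.mul_le_mul e3 hA3

end

end Cfsg.Agent.JFan
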